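import Mathlib.GroupTheory.SpecificGroups.Alternating
import Mathlib.GroupTheory.GroupAction.Quotient
import Mathlib.Data.Nat.Choose.Factorization
import Cfsg.Prelude.Def_HallClasses
import Cfsg.Agent.Eq.Def_HallClasses
import Cfsg.Agent.PermGroups.Basic

/-!
Hall subgroups of symmetric and alternating groups: restriction to invariant sets.
-/

set_option autoImplicit false
set_option linter.style.haveILetI false

open Cfsg Equiv Equiv.Perm
open scoped Nat

namespace CfsgLib.HallSym

variable {π : Set ℕ}

/-- The symmetric group for `c = 0`, the alternating group for `c = 1`. -/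
def ambient (c n : ℕ) : Subgroup (Perm (Fin n)) := if c = 1 then alternatingGroup (Fin n) else ⊤

/-- The correction of the exponent of `p` in the order of the ambient group. -/
def delta (c p : ℕ) : ℕ := if p = 2 then c else 0

/-- `H` is a `π`-subgroup of the ambient group containing its full `π`-part. -/
structure IsFull {n : ℕ} (π : Set ℕ) (c : ℕ) (H : Subgroup (Perm (Fin n))) : Prop where
  pi : IsPiSubgroup π H
  le : H ≤ ambient c n
  full : ∀ p : ℕ, p.Prime → p ∈ π →
    (n !).factorization p ≤ (Nat.card H).factorization p + delta c p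

/-- Two primes of `π` and one prime outside `π` are at most `n`. -/
def Nontriv (π : Set ℕ) (n : ℕ) : Prop :=
  (∃ r s : ℕ, r.Prime ∧ s.Prime ∧ r ≠ s ∧ r ∈ π ∧ s ∈ π ∧ r ≤ n ∧ s ≤ n) ∧
    ∃ r : ℕ, r.Prime ∧ r ≤ n ∧ r ∉ π

theorem delta_zero (p : ℕ) : delta 0 p = 0 := by simp [delta]

theorem mem_ambient {c n : ℕ} {g : Perm (Fin n)} :
    g ∈ ambient c n ↔ (c = 1 → Perm.sign g = 1) := by
  unfold ambient
  split_ifs with h <;> simp [h]

/-- The order of the ambient group. -/
theorem factorization_card_ambient {c n : ℕ} (hc : c ≤ 1) (hn : 2 ≤ n) (p : ℕ) :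
    (Nat.card (ambient c n)).factorization p + delta c p = (n !).factorization p := by
  interval_cases c
  · rw [ambient, if_neg (by norm_num), Subgroup.card_top, Nat.card_perm, Nat.card_fin, delta_zero,
      add_zero]
  · haveI : Nontrivial (Fin n) := Fin.nontrivial_iff_two_le.2 hn
    rw [ambient, if_pos rfl]
    have h := two_mul_nat_card_alternatingGroup (α := Fin n)
    rw [Nat.card_perm, Nat.card_fin] at h
    rw [← h, Nat.factorization_mul two_ne_zero Nat.card_pos.ne', Finsupp.add_apply, delta]
    by_cases h2 : p = 2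
    · subst h2
      rw [if_pos rfl, Nat.prime_two.factorization_self]
      omega
    · rw [if_neg h2, Nat.prime_two.factorization, Finsupp.single_eq_of_ne h2]
      omega

theorem factorization_le_of_le_ambient {c n : ℕ} (hc : c ≤ 1) (hn : 2 ≤ n)
    {H : Subgroup (Perm (Fin n))} (hH : H ≤ ambient c n) (p : ℕ) :
    (Nat.card H).factorization p + delta c p ≤ (n !).factorization p := by
  rw [← factorization_card_ambient hc hn p]
  have := Nat.factorization_le_factorization_of_dvd_right (a := p) (Subgroup.card_dvd_of_le hH)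
    Nat.card_pos.ne' Nat.card_pos.ne'
  omega

/-- A subgroup of a `π`-group `L` inside the ambient group equals it if it has the full `π`-part. -/
theorem eq_of_full_le {c n : ℕ} (hc : c ≤ 1) (hn : 2 ≤ n) {H : Subgroup (Perm (Fin n))}
    (hH : IsFull π c H) {L : Subgroup (Perm (Fin n))} (hHL : H ≤ L) (hL : IsPiSubgroup π L)
    (hLa : L ≤ ambient c n) : H = L := by
  refine Subgroup.eq_of_le_of_card_ge hHL (Nat.le_of_dvd Nat.card_pos ?_)
  rw [← Nat.factorization_le_iff_dvd Nat.card_pos.ne' Nat.card_pos.ne']
  intro p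
  by_cases hp : p.Prime ∧ p ∈ π
  · have h1 := hH.full p hp.1 hp.2
    have h2 := factorization_le_of_le_ambient hc hn hLa p
    omega
  · rcases not_and_or.1 hp with h | h
    · simp [Nat.factorization_eq_zero_of_not_prime _ h]
    · by_cases hpp : p.Prime
      · rw [Nat.factorization_eq_zero_of_not_dvd fun hd => h (hL p hpp hd)]
        exact Nat.zero_le _
      · simp [Nat.factorization_eq_zero_of_not_prime _ hpp]

/-- The stabiliser of a set of points. -/
def setStab {n : ℕ} (s : Finset (Fin n)) : Subgroup (Perm (Fin n)) where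
  carrier := {g | ∀ x, g x ∈ s ↔ x ∈ s}
  mul_mem' := fun {a b} ha hb x => by rw [Perm.mul_apply, ha, hb]
  one_mem' := fun x => Iff.rfl
  inv_mem' := fun {a} ha x => by
    rw [← ha (a⁻¹ x), ← Perm.mul_apply, mul_inv_cancel, Perm.one_apply]

theorem mem_setStab {n : ℕ} {s : Finset (Fin n)} {g : Perm (Fin n)} :
    g ∈ setStab s ↔ ∀ x, g x ∈ s ↔ x ∈ s := Iff.rfl

theorem setStab_compl {n : ℕ} (s : Finset (Fin n)) : setStab sᶜ = setStab s := by
  ext g
  simp only [mem_setStab, Finset.mem_compl, not_iff_not]

/-- The stabiliser of a point stabilises that point as a set. -/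
theorem setStab_singleton {n : ℕ} (x : Fin n) :
    setStab {x} = MulAction.stabilizer (Perm (Fin n)) x := by
  ext g
  simp only [mem_setStab, Finset.mem_singleton, MulAction.mem_stabilizer_iff, Perm.smul_def]
  exact ⟨fun h => (h x).2 rfl, fun h y => ⟨fun hy => g.injective (hy.trans h.symm),
    fun hy => by rw [hy, h]⟩⟩

theorem card_setStab {n : ℕ} (s : Finset (Fin n)) :
    Nat.card (setStab s) = (s.card)! * (n - s.card)! := by
  classical
  let e : setStab s ≃ Perm {x // x ∈ s} × Perm {x // ¬ x ∈ s} :=
    { toFun := fun g => (Perm.subtypePerm g.1 g.2, Perm.subtypePerm g.1 fun x => not_congr (g.2 x))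
      invFun := fun ab => ⟨Perm.subtypeCongr ab.1 ab.2, fun x => by
        by_cases hx : x ∈ s
        · rw [Perm.subtypeCongr.apply, dif_pos hx]
          exact iff_of_true (ab.1 ⟨x, hx⟩).2 hx
        · rw [Perm.subtypeCongr.apply, dif_neg hx]
          exact iff_of_false (ab.2 ⟨x, hx⟩).2 hx⟩
      left_inv := fun g => by
        refine Subtype.ext (Equiv.ext fun x => ?_)
        by_cases hx : x ∈ s
        · change Perm.subtypeCongr _ _ x = _
          rw [Perm.subtypeCongr.apply, dif_pos hx]
          rfl
        · change Perm.subtypeCongr _ _ x = _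
          rw [Perm.subtypeCongr.apply, dif_neg hx]
          rfl
      right_inv := fun ab => by
        refine Prod.ext (Equiv.ext fun x => Subtype.ext ?_) (Equiv.ext fun x => Subtype.ext ?_)
        · change Perm.subtypeCongr ab.1 ab.2 x.1 = (ab.1 x).1
          rw [Perm.subtypeCongr.apply, dif_pos x.2]
        · change Perm.subtypeCongr ab.1 ab.2 x.1 = (ab.2 x).1
          rw [Perm.subtypeCongr.apply, dif_neg x.2] }
  rw [Nat.card_congr e, Nat.card_prod, Nat.card_perm, Nat.card_perm]
  simp [Nat.card_eq_fintype_card, Fintype.card_subtype_compl]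

/-- The stabiliser of a set is a `π`-group if all primes up to both sizes lie in `π`. -/
theorem isPiSubgroup_setStab {n : ℕ} (s : Finset (Fin n))
    (h : ∀ r : ℕ, r.Prime → r ≤ s.card ∨ r ≤ n - s.card → r ∈ π) :
    IsPiSubgroup π (setStab s) := by
  intro r hr hd
  rw [card_setStab] at hd
  rcases hr.dvd_mul.1 hd with h' | h'
  · exact h r hr (Or.inl (hr.dvd_factorial.1 h'))
  · exact h r hr (Or.inr (hr.dvd_factorial.1 h'))

/-- An equivalence of an `m`-element set with `Fin m`. -/
noncomputable def finEquiv {n m : ℕ} {s : Finset (Fin n)} (hs : s.card = m) :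
    {x // x ∈ s} ≃ Fin m :=
  Fintype.equivFinOfCardEq (by rw [Fintype.card_coe, hs])

/-- Restriction to an invariant set, transported to `Fin m`. -/
noncomputable def restrictHom {n m : ℕ} {s : Finset (Fin n)} (hs : s.card = m) :
    setStab s →* Perm (Fin m) where
  toFun g := (finEquiv hs).permCongr (Perm.subtypePerm g.1 g.2)
  map_one' := Equiv.ext fun i => by simp [Equiv.permCongr_apply]
  map_mul' a b := Equiv.ext fun i => by
    simp only [Equiv.permCongr_apply, Perm.mul_apply, Equiv.symm_apply_apply]
    rfl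

theorem restrictHom_apply {n m : ℕ} {s : Finset (Fin n)} (hs : s.card = m) (g : setStab s)
    (x : {x // x ∈ s}) :
    restrictHom hs g (finEquiv hs x) = finEquiv hs ⟨g.1 x.1, (g.2 x.1).2 x.2⟩ := by
  change finEquiv hs (Perm.subtypePerm g.1 g.2 ((finEquiv hs).symm (finEquiv hs x))) = _
  rw [Equiv.symm_apply_apply]
  rfl

/-- The image of a subgroup on an invariant set. -/
noncomputable def restrict {n m : ℕ} {s : Finset (Fin n)} (hs : s.card = m)
    (K : Subgroup (Perm (Fin n))) : Subgroup (Perm (Fin m)) :=
  (K.subgroupOf (setStab s)).map (restrictHom hs)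

/-- Points fixed by the restriction are fixed by the group. -/
theorem fix_of_restrict {n m : ℕ} {s : Finset (Fin n)} (hs : s.card = m)
    {K : Subgroup (Perm (Fin n))} (hK : K ≤ setStab s) {i : Fin m}
    (h : restrict hs K ≤ MulAction.stabilizer (Perm (Fin m)) i) :
    ∀ g ∈ K, g ((finEquiv hs).symm i : Fin n) = ((finEquiv hs).symm i : Fin n) := by
  intro g hg
  have h1 := h (Subgroup.mem_map_of_mem (restrictHom hs)
    (show (⟨g, hK hg⟩ : setStab s) ∈ K.subgroupOf (setStab s) from hg))
  rw [MulAction.mem_stabilizer_iff, Perm.smul_def] at h1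
  have h2 := restrictHom_apply hs ⟨g, hK hg⟩ ((finEquiv hs).symm i)
  rw [Equiv.apply_symm_apply, h1] at h2
  have h3 := congrArg (finEquiv hs).symm h2
  rw [Equiv.symm_apply_apply] at h3
  exact (congrArg Subtype.val h3).symm

/-- The points of `s` sent into `t`. -/
noncomputable def pullback {n m : ℕ} {s : Finset (Fin n)} (hs : s.card = m) (t : Finset (Fin m)) :
    Finset (Fin n) :=
  t.map ((finEquiv hs).symm.toEmbedding.trans (Function.Embedding.subtype _))

theorem mem_pullback {n m : ℕ} {s : Finset (Fin n)} (hs : s.card = m) {t : Finset (Fin m)}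
    {x : Fin n} : x ∈ pullback hs t ↔ ∃ hx : x ∈ s, finEquiv hs ⟨x, hx⟩ ∈ t := by
  simp only [pullback, Finset.mem_map, Function.Embedding.trans_apply,
    Equiv.coe_toEmbedding, Function.Embedding.coe_subtype]
  constructor
  · rintro ⟨i, hi, rfl⟩
    exact ⟨((finEquiv hs).symm i).2, by simpa using hi⟩
  · rintro ⟨hx, h⟩
    exact ⟨_, h, by simp⟩

theorem card_pullback {n m : ℕ} {s : Finset (Fin n)} (hs : s.card = m) (t : Finset (Fin m)) :
    (pullback hs t).card = t.card := Finset.card_map _

/-- Restrictions inside a set stabiliser come from set stabilisers. -/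
theorem le_setStab_pullback {n m : ℕ} {s : Finset (Fin n)} (hs : s.card = m)
    {K : Subgroup (Perm (Fin n))} (hK : K ≤ setStab s) {t : Finset (Fin m)}
    (h : restrict hs K ≤ setStab t) : K ≤ setStab (pullback hs t) := by
  intro g hg x
  rw [mem_pullback, mem_pullback]
  constructor
  · rintro ⟨hgx, hgt⟩
    have hx := (hK hg x).1 hgx
    refine ⟨hx, ?_⟩
    have h1 := h (Subgroup.mem_map_of_mem (restrictHom hs)
      (show (⟨g, hK hg⟩ : setStab s) ∈ K.subgroupOf (setStab s) from hg)) (finEquiv hs ⟨x, hx⟩)
    rw [restrictHom_apply] at h1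
    exact h1.1 hgt
  · rintro ⟨hx, ht⟩
    refine ⟨(hK hg x).2 hx, ?_⟩
    have h1 := h (Subgroup.mem_map_of_mem (restrictHom hs)
      (show (⟨g, hK hg⟩ : setStab s) ∈ K.subgroupOf (setStab s) from hg)) (finEquiv hs ⟨x, hx⟩)
    rw [restrictHom_apply] at h1
    exact h1.2 ht

theorem restrictHom_sign {n m : ℕ} {s : Finset (Fin n)} (hs : s.card = m) (g : setStab s)
    (h : ∀ x, x ∉ s → g.1 x = x) : Perm.sign (restrictHom hs g) = Perm.sign g.1 := by
  change Perm.sign ((finEquiv hs).permCongr (Perm.subtypePerm g.1 g.2)) = _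
  rw [Perm.sign_permCongr]
  convert Perm.sign_subtypePerm g.1 g.2 fun x hx => not_not.1 fun hns => hx (h x hns)

/-- If at most one point lies outside `s`, the stabiliser of `s` fixes it. -/
theorem fix_compl {n m : ℕ} {s : Finset (Fin n)} (hs : s.card = m) (hl : n - m ≤ 1)
    {g : Perm (Fin n)} (hg : g ∈ setStab s) {x : Fin n} (hx : x ∉ s) : g x = x := by
  have h1 : sᶜ.card ≤ 1 := by rw [Finset.card_compl, Fintype.card_fin, hs]; omega
  exact Finset.card_le_one.1 h1 _ (Finset.mem_compl.2 fun h => hx ((hg x).1 h)) _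
    (Finset.mem_compl.2 hx)

/-- An element of the ambient group with the right restriction lies in the subgroup. -/
theorem mem_of_restrict_mem {n m : ℕ} {s : Finset (Fin n)} (hs : s.card = m) (hl : n - m ≤ 1)
    {K : Subgroup (Perm (Fin n))} {g : Perm (Fin n)} (hg : g ∈ setStab s)
    (h : restrictHom hs ⟨g, hg⟩ ∈ restrict hs K) : g ∈ K := by
  obtain ⟨k, hk, hkg⟩ := Subgroup.mem_map.1 h
  have he : (k : Perm (Fin n)) = g := by
    refine Equiv.ext fun x => ?_
    by_cases hx : x ∈ s
    · have h1 := DFunLike.congr_fun hkg (finEquiv hs ⟨x, hx⟩)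
      rw [restrictHom_apply, restrictHom_apply] at h1
      exact congrArg Subtype.val ((finEquiv hs).injective h1)
    · rw [fix_compl hs hl k.2 hx, fix_compl hs hl hg hx]
  exact he ▸ hk

/-- The ambient type of the restriction. -/
def restrictType (c l : ℕ) : ℕ := if 2 ≤ l then 0 else c

theorem restrictType_le {c l : ℕ} (hc : c ≤ 1) : restrictType c l ≤ 1 := by
  unfold restrictType; split_ifs <;> omega

/-- The restriction of a `π`-subgroup to an invariant set and the index bookkeeping. -/
theorem restrict_spec {n m c : ℕ} {s : Finset (Fin n)} (hs : s.card = m) (hc : c ≤ 1)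
    {K : Subgroup (Perm (Fin n))} (hKπ : IsPiSubgroup π K) (hKs : K ≤ setStab s)
    (hKa : K ≤ ambient c n) (d : ℕ → ℕ)
    (hd : ∀ p : ℕ, p.Prime → p ∈ π →
      (n !).factorization p ≤ (Nat.card K).factorization p + delta c p + d p) :
    IsPiSubgroup π (restrict hs K) ∧ restrict hs K ≤ ambient (restrictType c (n - m)) m ∧
      ∀ p : ℕ, p.Prime → p ∈ π → (m !).factorization p + (n.choose m).factorization p ≤
        (Nat.card (restrict hs K)).factorization p + delta (restrictType c (n - m)) p + d p := by
  classical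
  have hmn : m ≤ n := by
    rw [← hs]
    exact (Finset.card_le_univ s).trans (Fintype.card_fin n).le
  have hcard : Nat.card (K.subgroupOf (setStab s)) = Nat.card K :=
    Nat.card_congr (Subgroup.subgroupOfEquivOfLe hKs).toEquiv
  refine ⟨fun r hr hd' => hKπ r hr (hcard ▸ hd'.trans (Subgroup.card_map_dvd _ (restrictHom hs))), ?_, ?_⟩
  · intro g hg
    obtain ⟨k, hk, rfl⟩ := Subgroup.mem_map.1 hg
    rw [mem_ambient]
    intro h1
    obtain ⟨hl, rfl⟩ : n - m ≤ 1 ∧ c = 1 := by
      unfold restrictType at h1; split_ifs at h1; omega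
    rw [restrictHom_sign hs k fun x hx => fix_compl hs hl k.2 hx]
    exact mem_ambient.1 (hKa hk) rfl
  intro p hp hpπ
  -- the kernel acts on the complement
  let f : K.subgroupOf (setStab s) →* Perm (Fin m) :=
    (restrictHom hs).comp (K.subgroupOf (setStab s)).subtype
  have hrange : f.range = restrict hs K := by
    rw [MonoidHom.range_comp, Subgroup.range_subtype]
    rfl
  have hfix : ∀ k : f.ker, ∀ x ∈ s, (k.1.1.1 : Perm (Fin n)) x = x := fun k x hx => by
    have h1 := DFunLike.congr_fun (MonoidHom.mem_ker.1 k.2) (finEquiv hs ⟨x, hx⟩)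
    rw [Perm.one_apply, show f k.1 = restrictHom hs k.1.1 from rfl, restrictHom_apply] at h1
    exact congrArg Subtype.val ((finEquiv hs).injective h1)
  let ψ : f.ker →* Perm {x // ¬ x ∈ s} :=
    { toFun := fun k => Perm.subtypePerm k.1.1.1 fun x => not_congr (k.1.1.2 x)
      map_one' := Equiv.ext fun x => rfl
      map_mul' := fun a b => Equiv.ext fun x => rfl }
  have hψ : Function.Injective ψ := by
    intro a b hab
    refine Subtype.ext (Subtype.ext (Subtype.ext (Equiv.ext fun x => ?_)))
    by_cases hx : x ∈ s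
    · rw [hfix a x hx, hfix b x hx]
    · exact congrArg Subtype.val (DFunLike.congr_fun hab ⟨x, hx⟩)
  have hl : Nat.card {x // ¬ x ∈ s} = n - m := by
    rw [Nat.card_eq_fintype_card, Fintype.card_subtype_compl, Fintype.card_fin, Fintype.card_coe,
      hs]
  have hker : Nat.card f.ker * (if c = 1 ∧ 2 ≤ n - m then 2 else 1) ∣ (n - m)! := by
    rw [← Nat.card_congr (MonoidHom.ofInjective hψ).toEquiv.symm]
    split_ifs with h
    · haveI : Nontrivial {x // ¬ x ∈ s} :=
        Finite.one_lt_card_iff_nontrivial.1 (by rw [hl]; omega)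
      rw [mul_comm, ← hl, ← Nat.card_perm, ← two_mul_nat_card_alternatingGroup]
      refine Nat.mul_dvd_mul_left 2 (Subgroup.card_dvd_of_le ?_)
      rintro _ ⟨k, rfl⟩
      rw [Perm.mem_alternatingGroup]
      change Perm.sign (Perm.subtypePerm k.1.1.1 (fun x => not_congr (k.1.1.2 x))) = 1
      refine Eq.trans ?_ (mem_ambient.1 (hKa k.1.2) h.1)
      convert! Perm.sign_subtypePerm (p := fun x => x ∉ s) k.1.1.1
        (fun x => not_congr (k.1.1.2 x)) fun x hx hxs => hx (hfix k x hxs)
    · rw [mul_one, ← hl, ← Nat.card_perm]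
      exact Subgroup.card_subgroup_dvd_card _
  have hmul : Nat.card (restrict hs K) * Nat.card f.ker = Nat.card K := by
    rw [← hrange, ← hcard, ← Subgroup.index_ker, Subgroup.index_mul_card]
  have h1 := hd p hp hpπ
  have h2 : (n !).factorization p =
      (n.choose m).factorization p + (m !).factorization p + ((n - m)!).factorization p := by
    rw [← Nat.choose_mul_factorial_mul_factorial hmn, Nat.factorization_mul
      (mul_ne_zero (Nat.choose_pos hmn).ne' (Nat.factorial_ne_zero _)) (Nat.factorial_ne_zero _),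
      Finsupp.add_apply, Nat.factorization_mul (Nat.choose_pos hmn).ne' (Nat.factorial_ne_zero _),
      Finsupp.add_apply]
  have h3 : (Nat.card K).factorization p =
      (Nat.card (restrict hs K)).factorization p + (Nat.card f.ker).factorization p := by
    rw [← hmul, Nat.factorization_mul Nat.card_pos.ne' Nat.card_pos.ne', Finsupp.add_apply]
  have h4 : (Nat.card f.ker).factorization p + delta c p ≤
      ((n - m)!).factorization p + delta (restrictType c (n - m)) p := by
    have h5 := Nat.factorization_le_factorization_of_dvd_right (a := p) hker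
      (mul_ne_zero Nat.card_pos.ne' (by split_ifs <;> norm_num)) (Nat.factorial_ne_zero _)
    rw [Nat.factorization_mul Nat.card_pos.ne' (by split_ifs <;> norm_num), Finsupp.add_apply] at h5
    unfold restrictType delta at *
    by_cases hp2 : p = 2
    · subst hp2
      rw [apply_ite (fun t : ℕ => t.factorization 2)] at h5
      simp only [Nat.prime_two.factorization_self, Nat.factorization_one, Finsupp.coe_zero,
        Pi.zero_apply] at h5
      split_ifs at h5 ⊢ <;> omega
    · simp only [if_neg hp2]
      omega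
  omega

end CfsgLib.HallSym
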