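import Mathlib.GroupTheory.GroupAction.Jordan
import Mathlib.GroupTheory.GroupAction.Blocks
import Mathlib.Data.Nat.Choose.Central
import Cfsg.Agent.Perm57.ChooseSmallPrime
import Cfsg.Agent.Perm57.HallSym.Core
import Cfsg.Agent.PermGroups.PrimeDegree
import Cfsg.Agent.Chars.Apps.Burnside

/-!
Classification of the Hall subgroups of symmetric and alternating groups.
-/

set_option autoImplicit false
set_option linter.style.haveILetI false

open Cfsg Equiv Equiv.Perm MulAction
open scoped Nat Pointwise

namespace CfsgLib.HallSym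

variable {π : Set ℕ}

/-- The primes of `π` up to `n` are exactly two and three. -/
def IsTwoThree (π : Set ℕ) (n : ℕ) : Prop :=
  ∀ r : ℕ, r.Prime → r ≤ n → (r ∈ π ↔ r = 2 ∨ r = 3)

/-- `n` is prime and the primes of `π` up to `n` are those below `n`. -/
def IsBelow (π : Set ℕ) (n : ℕ) : Prop :=
  n.Prime ∧ ∀ r : ℕ, r.Prime → r ≤ n → (r ∈ π ↔ r < n)

/-- The stabiliser of the partition into `s` and its complement. -/
def partStab {n : ℕ} (s : Finset (Fin n)) : Subgroup (Perm (Fin n)) where
  carrier := {g | (∀ x, g x ∈ s ↔ x ∈ s) ∨ ∀ x, g x ∈ s ↔ x ∉ s}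
  mul_mem' := by
    rintro a b (ha | ha) (hb | hb)
    · exact Or.inl fun x => by rw [Perm.mul_apply, ha, hb]
    · exact Or.inr fun x => by rw [Perm.mul_apply, ha, hb]
    · exact Or.inr fun x => by rw [Perm.mul_apply, ha, hb]
    · exact Or.inl fun x => by rw [Perm.mul_apply, ha, hb, not_not]
  one_mem' := Or.inl fun x => Iff.rfl
  inv_mem' := by
    rintro a (ha | ha)
    · exact Or.inl fun x => by
        rw [← ha (a⁻¹ x), ← Perm.mul_apply, mul_inv_cancel, Perm.one_apply]
    · refine Or.inr fun x => ?_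
      have := ha (a⁻¹ x)
      rw [← Perm.mul_apply, mul_inv_cancel, Perm.one_apply] at this
      tauto

theorem mem_partStab {n : ℕ} {s : Finset (Fin n)} {g : Perm (Fin n)} :
    g ∈ partStab s ↔ (∀ x, g x ∈ s ↔ x ∈ s) ∨ ∀ x, g x ∈ s ↔ x ∉ s := Iff.rfl

theorem setStab_le_partStab {n : ℕ} (s : Finset (Fin n)) : setStab s ≤ partStab s :=
  fun _ hg => Or.inl hg

theorem card_partStab {n : ℕ} (s : Finset (Fin n)) (hs : 2 * s.card = n) (hn : 0 < n) :
    Nat.card (partStab s) = 2 * ((s.card)! * (s.card)!) := by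
  classical
  have hc : Fintype.card {x // x ∈ s} = Fintype.card {x // ¬ x ∈ s} := by
    rw [Fintype.card_subtype_compl, Fintype.card_fin, Fintype.card_coe]; omega
  obtain ⟨e⟩ : Nonempty ({x // x ∈ s} ≃ {x // ¬ x ∈ s}) := ⟨Fintype.equivOfCardEq hc⟩
  let τ : Perm (Fin n) := e.extendSubtype
  have hτ : ∀ x, τ x ∈ s ↔ x ∉ s := fun x => by
    by_cases hx : x ∈ s
    · exact iff_of_false (e.extendSubtype_mem x hx) (not_not.2 hx)
    · exact iff_of_true (not_not.1 (e.extendSubtype_not_mem x hx)) hx
  have hτi : ∀ x, τ⁻¹ x ∈ s ↔ x ∉ s := fun x => by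
    have := hτ (τ⁻¹ x)
    rw [← Perm.mul_apply, mul_inv_cancel, Perm.one_apply] at this
    tauto
  let f : setStab s ⊕ setStab s → partStab s := Sum.elim (fun g => ⟨g.1, Or.inl g.2⟩)
    fun g => ⟨τ * g.1, Or.inr fun x => by rw [Perm.mul_apply, hτ, g.2]⟩
  have hne : ∀ (a : setStab s), ¬ (τ * a.1 : Perm (Fin n)) ∈ setStab s := by
    intro a h
    have h1 := h ⟨0, hn⟩
    rw [Perm.mul_apply, hτ, a.2] at h1
    tauto
  have hf : Function.Bijective f := by
    constructor
    · rintro (a | a) (b | b) h
      · exact congrArg Sum.inl (Subtype.ext (congrArg Subtype.val h :))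
      · refine absurd ?_ (hne b)
        rw [← show (a.1 : Perm (Fin n)) = τ * b.1 from congrArg Subtype.val h]
        exact a.2
      · refine absurd ?_ (hne a)
        rw [show (τ * a.1 : Perm (Fin n)) = b.1 from congrArg Subtype.val h]
        exact b.2
      · exact congrArg Sum.inr (Subtype.ext (mul_left_cancel (congrArg Subtype.val h :)))
    · rintro ⟨g, hg | hg⟩
      · exact ⟨Sum.inl ⟨g, hg⟩, rfl⟩
      · refine ⟨Sum.inr ⟨τ⁻¹ * g, fun x => ?_⟩, Subtype.ext (mul_inv_cancel_left τ g)⟩
        rw [Perm.mul_apply, hτi, hg, not_not]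
  rw [← Nat.card_congr (Equiv.ofBijective f hf), Nat.card_sum, card_setStab,
    show n - s.card = s.card by omega]
  ring

theorem isPiSubgroup_partStab {s : Finset (Fin 8)} (hs : s.card = 4) (h : IsTwoThree π 8) :
    IsPiSubgroup π (partStab s) := by
  intro r hr hd
  rw [card_partStab s (by omega) (by norm_num), hs] at hd
  have h1 : ∀ t, r ∣ t ! → t ≤ 4 → r ∈ π := fun t ht htn => by
    have : r ≤ 4 := (hr.dvd_factorial.1 ht).trans htn
    interval_cases r
    · exact absurd hr (by norm_num)
    · exact absurd hr (by norm_num)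
    · exact (h 2 hr (by norm_num)).2 (Or.inl rfl)
    · exact (h 3 hr (by norm_num)).2 (Or.inr rfl)
    · exact absurd hr (by norm_num)
  rcases hr.dvd_mul.1 hd with h' | h'
  · exact h1 2 (by simpa using h') (by norm_num)
  · rcases hr.dvd_mul.1 h' with h'' | h'' <;> exact h1 4 h'' le_rfl

/-- The possible shapes of Hall subgroups. -/
def Shape {n : ℕ} (π : Set ℕ) (H : Subgroup (Perm (Fin n))) : Prop :=
  (IsBelow π n ∧ ∃ x, H ≤ setStab {x}) ∨
  (n = 7 ∧ IsTwoThree π n ∧ ∃ s : Finset (Fin n), s.card = 3 ∧ H ≤ setStab s) ∨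
  (n = 8 ∧ IsTwoThree π n ∧ ∃ s : Finset (Fin n), s.card = 4 ∧ H ≤ partStab s)

theorem Nontriv.five_le {n : ℕ} (h : Nontriv π n) : 5 ≤ n := by
  obtain ⟨⟨a, b, ha, hb, hab, haπ, hbπ, han, hbn⟩, r, hr, hrn, hrπ⟩ := h
  by_contra hn
  have key : ∀ t : ℕ, t.Prime → t ≤ n → t = 2 ∨ t = 3 := fun t ht htn => by
    have : t ≤ 4 := by omega
    interval_cases t <;> first | omega | exact absurd ht (by norm_num)
  rcases key a ha han with rfl | rfl <;> rcases key b hb hbn with rfl | rfl <;>
    rcases key r hr hrn with rfl | rfl <;> first | omega | contradiction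

theorem carry_succ_self {l : ℕ} (hl : 0 < l) (h : l % 2 = 0) :
    ∃ e, 2 ^ e ≤ (l + 1) % 2 ^ e + l % 2 ^ e := by
  obtain ⟨a, b, hb, rfl⟩ := Nat.exists_eq_two_pow_mul_odd hl.ne'
  obtain ⟨k, rfl⟩ := hb
  have ha : a ≠ 0 := by
    rintro rfl
    simp at h
  refine ⟨a + 1, ?_⟩
  have h1 : 2 ≤ 2 ^ a := by
    calc 2 = 2 ^ 1 := rfl
      _ ≤ 2 ^ a := Nat.pow_le_pow_right (by norm_num) (by omega)
  have e1 : 2 ^ a * (2 * k + 1) = 2 ^ a + 2 ^ (a + 1) * k := by ring
  rw [e1, show 2 ^ a + 2 ^ (a + 1) * k + 1 = (2 ^ a + 1) + 2 ^ (a + 1) * k by ring,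
    Nat.add_mul_mod_self_left, Nat.add_mul_mod_self_left, Nat.mod_eq_of_lt, Nat.mod_eq_of_lt]
  · rw [pow_succ]; omega
  · rw [pow_succ]; omega
  · rw [pow_succ]; omega

/-- Restriction to an invariant set of a full subgroup. -/
theorem invariant_step {n m c : ℕ} (hc : c ≤ 1) {H : Subgroup (Perm (Fin n))}
    (hH : IsFull π c H) {s : Finset (Fin n)} (hs : s.card = m) (hm : 2 ≤ m)
    (hHs : H ≤ setStab s) :
    IsFull π (restrictType c (n - m)) (restrict hs H) ∧
      ∀ p : ℕ, p.Prime → p ∈ π → ¬ p ∣ n.choose m := by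
  have hmn : m ≤ n := by
    rw [← hs]; exact (Finset.card_le_univ s).trans (Fintype.card_fin n).le
  obtain ⟨h1, h2, h3⟩ := restrict_spec hs hc hH.pi hHs hH.le (fun _ => 0)
    fun p hp hpπ => by simpa using hH.full p hp hpπ
  refine ⟨⟨h1, h2, fun p hp hpπ => ?_⟩, fun p hp hpπ hd => ?_⟩
  · have := h3 p hp hpπ
    omega
  · have h4 := h3 p hp hpπ
    have h5 := factorization_le_of_le_ambient (restrictType_le hc) hm h2 p
    have h6 := (hp.dvd_iff_one_le_factorization (Nat.choose_pos hmn).ne').1 hd
    omega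

/-- An invariant set `s` bigger than its complement with all primes up to its size in `π`. -/
theorem shape_of_invariant {n m c : ℕ} (hc : c ≤ 1) {H : Subgroup (Perm (Fin n))}
    (hH : IsFull π c H) (hN : Nontriv π n) {s : Finset (Fin n)} (hs : s.card = m)
    (hHs : H ≤ setStab s) (hln : n - m < m) (hl : 1 ≤ n - m)
    (hall : ∀ r : ℕ, r.Prime → r ≤ m → r ∈ π) : Shape π H := by
  have h5 := hN.five_le
  obtain ⟨-, hC⟩ := invariant_step hc hH hs (by omega) hHs
  obtain ⟨r₀, hr₀, hr₀n, hr₀π⟩ := hN.2
  rcases eq_or_lt_of_le hl with h1 | h1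
  · -- a point is fixed
    obtain rfl : n = m + 1 := by omega
    have hp : (m + 1).Prime := ChooseSmallPrime.prime_succ (by omega) fun p hp hpm hd =>
      hC p hp (hall p hp hpm) (by rwa [Nat.choose_succ_self_right])
    left
    refine ⟨⟨hp, fun r hr hrn => ⟨fun hrπ => ?_, fun hlt => hall r hr (by omega)⟩⟩, ?_⟩
    · by_contra hlt
      obtain rfl : r = m + 1 := by omega
      rcases eq_or_lt_of_le hr₀n with h | h
      · exact hr₀π (h ▸ hrπ)
      · exact hr₀π (hall r₀ hr₀ (by omega))
    · obtain ⟨x, hx⟩ := Finset.card_eq_one.1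
        (show sᶜ.card = 1 by rw [Finset.card_compl, Fintype.card_fin, hs]; omega)
      exact ⟨x, hx ▸ (setStab_compl s).symm ▸ hHs⟩
  · obtain ⟨l, rfl⟩ : ∃ l, n = m + l := ⟨n - m, by omega⟩
    obtain ⟨rfl, rfl⟩ := ChooseSmallPrime.eq_four_three (m := m) (l := l) (by omega) (by omega)
      fun p hp hpm hd => hC p hp (hall p hp hpm) (by rwa [Nat.choose_symm_add])
    right; left
    refine ⟨rfl, fun r hr hrn => ⟨fun hrπ => ?_, fun h => hall r hr (by omega)⟩, sᶜ,
      by rw [Finset.card_compl, Fintype.card_fin, hs], (setStab_compl s).symm ▸ hHs⟩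
    by_contra hne
    have h57 : r = 5 ∨ r = 7 := by
      interval_cases r <;> first | omega | exact absurd hr (by norm_num)
    apply hC r hr hrπ
    rcases h57 with rfl | rfl <;> decide

theorem even_central {n m : ℕ} (hm : 1 ≤ m) (h : n = 2 * m) : 2 ∣ n.choose m := by
  subst h
  exact Nat.two_dvd_centralBinom_of_one_le hm

theorem carry_contra {n m p : ℕ} (e : ℕ) (hmn : m ≤ n) (hp : p.Prime)
    (h : p ^ e ≤ m % p ^ e + (n - m) % p ^ e) : p ∣ n.choose m := by
  by_contra hd
  obtain ⟨l, rfl⟩ : ∃ l, n = m + l := ⟨n - m, by omega⟩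
  rw [Nat.choose_symm_add] at hd
  have := ChooseSmallPrime.mod_add_lt hp hd e
  rw [Nat.add_sub_cancel_left] at h
  omega

/-- The intransitive case. -/
theorem shape_of_intransitive {n c : ℕ} (hc : c ≤ 1) {H : Subgroup (Perm (Fin n))}
    (hH : IsFull π c H) (hN : Nontriv π n)
    (IH : ∀ m < n, ∀ c' ≤ 1, ∀ X : Subgroup (Perm (Fin m)),
      IsFull π c' X → Nontriv π m → Shape π X)
    {o : Finset (Fin n)} (ho0 : 0 < o.card) (hon : o.card < n) (hHo : H ≤ setStab o) :
    Shape π H := by
  have h5 := hN.five_le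
  obtain ⟨s, m, hs, hHs, hge, hl⟩ : ∃ (s : Finset (Fin n)) (m : ℕ),
      s.card = m ∧ H ≤ setStab s ∧ n - m ≤ m ∧ 1 ≤ n - m := by
    by_cases h : n - o.card ≤ o.card
    · exact ⟨o, o.card, rfl, hHo, h, by omega⟩
    · refine ⟨oᶜ, n - o.card, ?_, (setStab_compl o).symm ▸ hHo, by omega, by omega⟩
      rw [Finset.card_compl, Fintype.card_fin]
  obtain ⟨hX, hC⟩ := invariant_step hc hH hs (by omega) hHs
  obtain ⟨a, b, ha, hb, hab, haπ, hbπ, han, hbn⟩ := hN.1
  have hPm : ∀ p : ℕ, p.Prime → p ∈ π → p ≤ n → p ≤ m := by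
    intro p hp hpπ hpn
    have h1 : p ∣ n ! := hp.dvd_factorial.2 hpn
    rw [← Nat.choose_mul_factorial_mul_factorial (show m ≤ n by omega)] at h1
    rcases hp.dvd_mul.1 h1 with h2 | h2
    · rcases hp.dvd_mul.1 h2 with h3 | h3
      · exact absurd h3 (hC p hp hpπ)
      · exact hp.dvd_factorial.1 h3
    · exact (hp.dvd_factorial.1 h2).trans hge
  have hne : 2 ∈ π → n - m < m := fun h2 => by
    by_contra hc'
    exact hC 2 Nat.prime_two h2 (even_central (by omega) (by omega))
  by_cases hall : ∀ r : ℕ, r.Prime → r ≤ m → r ∈ π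
  · exact shape_of_invariant hc hH hN hs hHs (hne (hall 2 Nat.prime_two (by omega))) hl hall
  · simp only [not_forall, exists_prop] at hall
    have hNm : Nontriv π m := ⟨⟨a, b, ha, hb, hab, haπ, hbπ, hPm a ha haπ han,
      hPm b hb hbπ hbn⟩, hall⟩
    have hm5 := hNm.five_le
    rcases IH m (by omega) _ (restrictType_le hc) _ hX hNm with
      ⟨⟨hmp, hbelow⟩, i, hi⟩ | ⟨rfl, h23, -⟩ | ⟨rfl, h23, -⟩
    · have h2 : 2 ∈ π := (hbelow 2 Nat.prime_two (by omega)).2 (by omega)
      have hlm := hne h2
      have hmodd : m % 2 = 1 := Nat.odd_iff.1 (hmp.odd_of_ne_two (by omega))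
      have hleven : (n - m) % 2 = 0 := by
        by_contra hodd
        exact hC 2 Nat.prime_two h2 (carry_contra 1 (by omega) Nat.prime_two
          (by rw [pow_one]; omega))
      have hne2 : m ≠ n - m + 1 := fun heq => by
        obtain ⟨e, he⟩ := carry_succ_self (l := n - m) (by omega) hleven
        exact hC 2 Nat.prime_two h2 (carry_contra e (by omega) Nat.prime_two
          (by rwa [← heq] at he))
      have hy : ((finEquiv hs).symm i : Fin n) ∈ s := ((finEquiv hs).symm i).2
      refine shape_of_invariant hc hH hN (m := m - 1) (s := s.erase ((finEquiv hs).symm i))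
        (by rw [Finset.card_erase_of_mem hy, hs]) ?_ (by omega) (by omega)
        fun r hr hrm => (hbelow r hr (by omega)).2 (by omega)
      intro g hg x
      have hfix := fix_of_restrict hs hHs (setStab_singleton i ▸ hi) g hg
      rw [Finset.mem_erase, Finset.mem_erase, hHs hg x]
      exact and_congr_left' ⟨fun hne hx => hne (by rw [hx, hfix]),
        fun hne hx => hne (g.injective (hx.trans hfix.symm))⟩
    · exfalso
      have h2 : 2 ∈ π := (h23 2 Nat.prime_two (by norm_num)).2 (Or.inl rfl)
      have h3 : 3 ∈ π := (h23 3 Nat.prime_three (by norm_num)).2 (Or.inr rfl)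
      have hlm := hne h2
      rcases eq_or_lt_of_le hl with h1 | h1
      · exact hC 2 Nat.prime_two h2 (carry_contra 1 (by omega) Nat.prime_two
          (by rw [← h1]; norm_num))
      · exact hC 3 Nat.prime_three h3 (carry_contra 2 (by omega) Nat.prime_three
          (by rw [Nat.mod_eq_of_lt (show 7 < 3 ^ 2 by norm_num), Nat.mod_eq_of_lt (by omega)]
              omega))
    · exfalso
      have h2 : 2 ∈ π := (h23 2 Nat.prime_two (by norm_num)).2 (Or.inl rfl)
      have h3 : 3 ∈ π := (h23 3 Nat.prime_three (by norm_num)).2 (Or.inr rfl)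
      have hlm := hne h2
      exact hC 3 Nat.prime_three h3 (carry_contra 2 (by omega) Nat.prime_three
        (by rw [Nat.mod_eq_of_lt (show 8 < 3 ^ 2 by norm_num), Nat.mod_eq_of_lt (by omega)]
            omega))

/-- An even permutation inside a part carrying one given point to another. -/
theorem exists_cycle {n : ℕ} {part : Finset (Fin n)} (h3 : 3 ≤ part.card) {a b : Fin n}
    (ha : a ∈ part) (hb : b ∈ part) (hab : a ≠ b) :
    ∃ γ : Perm (Fin n), IsThreeCycle γ ∧ Perm.sign γ = 1 ∧ γ a = b ∧
      (∀ z, z ∉ part → γ z = z) ∧ γ ∈ setStab part := by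
  obtain ⟨e, he, hea, heb⟩ : ∃ e ∈ part, e ≠ a ∧ e ≠ b := by
    have : 0 < ((part.erase a).erase b).card := by
      rw [Finset.card_erase_of_mem (Finset.mem_erase.2 ⟨hab.symm, hb⟩),
        Finset.card_erase_of_mem ha]
      omega
    obtain ⟨e, he⟩ := Finset.card_pos.1 this
    simp only [Finset.mem_erase] at he
    exact ⟨e, he.2.2, he.2.1, he.1⟩
  have h3c := Perm.isThreeCycle_swap_mul_swap_same hea.symm hab heb
  have hout : ∀ z, z ∉ part → (Equiv.swap a e * Equiv.swap a b) z = z := fun z hz => by
    rw [Perm.mul_apply, Equiv.swap_apply_of_ne_of_ne (a := a) (b := b)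
      (fun h : z = a => hz (h ▸ ha)) (fun h : z = b => hz (h ▸ hb)),
      Equiv.swap_apply_of_ne_of_ne (fun h : z = a => hz (h ▸ ha)) fun h : z = e => hz (h ▸ he)]
  refine ⟨Equiv.swap a e * Equiv.swap a b, h3c, h3c.sign, ?_, hout, fun z => ?_⟩
  · rw [Perm.mul_apply, Equiv.swap_apply_left, Equiv.swap_apply_of_ne_of_ne hab.symm heb.symm]
  · constructor
    · intro h
      by_contra hz
      rw [hout z hz] at h
      exact hz h
    · intro h
      by_contra hz
      have h1 := hout _ hz
      exact hz (((Equiv.swap a e * Equiv.swap a b).injective h1).symm ▸ h)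

/-- The stabiliser of a point in a transitive group. -/
theorem card_inf_stabilizer {n : ℕ} {H : Subgroup (Perm (Fin n))}
    (htr : IsPretransitive H (Fin n)) (z : Fin n) :
    n * Nat.card (H ⊓ stabilizer (Perm (Fin n)) z : Subgroup (Perm (Fin n))) = Nat.card H := by
  have e : (stabilizer H z).map H.subtype = H ⊓ stabilizer (Perm (Fin n)) z := by
    ext g
    rw [Subgroup.mem_map, Subgroup.mem_inf]
    exact ⟨fun ⟨k, hk, e⟩ => e ▸ ⟨k.2, hk⟩, fun h => ⟨⟨g, h.1⟩, h.2, rfl⟩⟩
  rw [← e, Subgroup.card_map_of_injective H.subtype_injective]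
  have h := PermGroups.card_mul_card_stabilizer (G := H) (X := Fin n) z
  rwa [Nat.card_fin] at h

/-- Lifting an element from the restriction of a point stabiliser. -/
theorem mem_of_stab {n m c : ℕ} {H : Subgroup (Perm (Fin n))} {x : Fin n} {s : Finset (Fin n)}
    (hs : s.card = m) (hnm : n = m + 1) (hxs : x ∉ s) {L : Subgroup (Perm (Fin m))}
    (hX : restrict hs (H ⊓ stabilizer (Perm (Fin n)) x) = L ⊓ ambient c m) {g : Perm (Fin n)}
    (hga : c = 1 → Perm.sign g = 1) (hgs : g ∈ setStab s)
    (hgL : restrictHom hs ⟨g, hgs⟩ ∈ L) : g ∈ H ∧ g x = x := by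
  have hgx : g x = x := fix_compl hs (by omega) hgs hxs
  refine ⟨(mem_of_restrict_mem hs (by omega) hgs (K := H ⊓ stabilizer (Perm (Fin n)) x) ?_).1,
    hgx⟩
  rw [hX, Subgroup.mem_inf, mem_ambient, restrictHom_sign hs ⟨g, hgs⟩
    fun z hz => fix_compl hs (by omega) hgs hz]
  exact ⟨hgL, hga⟩

/-- A prime degree with just one further prime: no full subgroup is transitive. -/
theorem false_of_prime_degree {n p c : ℕ} (hn : n.Prime) (hn5 : 5 ≤ n) (hc : c ≤ 1)
    (hp : p.Prime) (hpn : p + 2 ≤ n) (hpπ : p ∈ π)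
    (honly : ∀ r : ℕ, r.Prime → r ≤ n → r ∈ π → r = p ∨ r = n)
    {H : Subgroup (Perm (Fin n))} (hH : IsFull π c H) (htr : IsPretransitive H (Fin n)) :
    False := by
  classical
  haveI : Fact n.Prime := ⟨hn⟩
  have hsol : Group.IsSolvable H := by
    refine Chars.Apps.isSolvable_of_primeFactors_subset H hp hn fun r hr hd => ?_
    refine honly r hr ?_ (hH.pi r hr hd)
    have e : Nat.card (Perm (Fin n)) = n ! := by rw [Nat.card_perm, Nat.card_fin]
    have h1 : r ∣ n ! := hd.trans (e ▸ Subgroup.card_subgroup_dvd_card H)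
    exact hr.dvd_factorial.1 h1
  obtain ⟨P⟩ : Nonempty (Sylow n H) := inferInstance
  have hX : Nat.card (Fin n) = n := Nat.card_fin n
  obtain ⟨d, hd, hcard⟩ := PermGroups.exists_card_normalizer_sylow hX P
  haveI hPn := PermGroups.sylow_normal_of_isSolvable hX hsol P
  rw [Subgroup.normalizer_eq_top, Subgroup.card_top] at hcard
  obtain ⟨k, rfl⟩ : ∃ k, n = k + 2 := ⟨n - 2, by omega⟩
  have hd0 : d ≠ 0 := by
    rintro rfl
    simp at hd
  have h1 := hH.full p hp hpπ
  have hpne : (k + 2).factorization p = 0 := by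
    refine Nat.factorization_eq_zero_of_not_dvd fun h => ?_
    have := (Nat.prime_dvd_prime_iff_eq hp hn).1 h
    omega
  rw [hcard, Nat.factorization_mul (by omega) hd0, Finsupp.add_apply, hpne,
    Nat.factorial_succ, Nat.factorial_succ,
    Nat.factorization_mul (by omega) (by positivity), Finsupp.add_apply, hpne,
    Nat.factorization_mul (by omega) (Nat.factorial_ne_zero _), Finsupp.add_apply] at h1
  have h2 : d.factorization p ≤ (k + 1).factorization p :=
    Nat.factorization_le_factorization_of_dvd_right (by simpa using hd) hd0 (by omega)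
  have h3 : 1 ≤ (k !).factorization p :=
    (hp.dvd_iff_one_le_factorization (Nat.factorial_ne_zero _)).1 (hp.dvd_factorial.2 (by omega))
  obtain ⟨rfl, rfl⟩ : p = 2 ∧ c = 1 := by
    unfold delta at h1
    split_ifs at h1 with h <;> omega
  simp only [delta, if_pos] at h1
  have hk4 : k < 4 := by
    by_contra h4
    have h4' : 2 ^ 3 ∣ k ! := (show 2 ^ 3 ∣ Nat.factorial 4 by decide).trans (Nat.factorial_dvd_factorial (by omega))
    rw [Nat.prime_two.pow_dvd_iff_le_factorization (Nat.factorial_ne_zero _)] at h4'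
    omega
  obtain rfl : k = 3 := by
    interval_cases k <;> first | rfl | omega
  -- degree five
  have hPc : Nat.card (P : Subgroup H) = 5 := PermGroups.card_sylow_prime_degree hX P
  have hd4 : 2 ^ 2 ∣ d := by
    rw [Nat.prime_two.pow_dvd_iff_le_factorization hd0]
    have e4 : (3 + 1 : ℕ).factorization 2 = 2 := by
      rw [show (3 + 1 : ℕ) = 2 ^ 2 by norm_num, Nat.prime_two.factorization_pow,
        Finsupp.single_eq_same]
    omega
  let ψ : H →* MulAut (P : Subgroup H) := MulAut.conjNormal
  haveI : IsCyclic (P : Subgroup H) := isCyclic_of_prime_card hPc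
  haveI : Finite (MulAut (P : Subgroup H)) :=
    Finite.of_equiv _ (IsCyclic.mulAutMulEquiv (P : Subgroup H)).toEquiv.symm
  have hker : ψ.ker ≤ (P : Subgroup H) := by
    intro g hg
    rw [← PermGroups.centralizer_sylow_prime_degree hX P, Subgroup.mem_centralizer_iff]
    intro t ht
    have h1' := DFunLike.congr_fun (MonoidHom.mem_ker.1 hg) (⟨t, ht⟩ : (P : Subgroup H))
    have h2' : g * t * g⁻¹ = t := congrArg Subtype.val h1'
    exact (mul_inv_eq_iff_eq_mul.1 h2').symm
  have hA : Nat.card (MulAut (P : Subgroup H)) = 4 := by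
    rw [IsCyclic.card_mulAut, hPc]
    decide
  have hrange : ψ.range = ⊤ := by
    apply Subgroup.eq_top_of_card_eq
    rw [hA]
    have h5 := Nat.le_of_dvd (by omega) (Subgroup.card_dvd_of_le hker)
    rw [hPc] at h5
    have h6 : Nat.card ψ.range * Nat.card ψ.ker = 5 * d := by
      rw [← Subgroup.index_ker, Subgroup.index_mul_card, hcard]
    have h7 := Nat.le_of_dvd (Nat.pos_of_ne_zero hd0) hd4
    have h8 : Nat.card ψ.range ≤ 4 := hA ▸ Subgroup.card_le_card_group _
    nlinarith
  haveI : IsCyclic (ZMod 5)ˣ := by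
    haveI : Fact (Nat.Prime 5) := ⟨by norm_num⟩
    infer_instance
  haveI : IsCyclic (ZMod (Nat.card (P : Subgroup H)))ˣ := by rw [hPc]; infer_instance
  haveI : IsCyclic (MulAut (P : Subgroup H)) :=
    isCyclic_of_surjective (IsCyclic.mulAutMulEquiv (P : Subgroup H)).symm.toMonoidHom
      (IsCyclic.mulAutMulEquiv (P : Subgroup H)).symm.surjective
  obtain ⟨u, hu⟩ := IsCyclic.exists_ofOrder_eq_natCard (α := MulAut (P : Subgroup H))
  obtain ⟨g, hg⟩ := MonoidHom.range_eq_top.1 hrange u
  have h4g : 4 ∣ orderOf (g : Perm (Fin 5)) := by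
    rw [Subgroup.orderOf_coe, ← hA, ← hu, ← hg]
    exact orderOf_map_dvd ψ g
  have h30 : ∀ t : Perm (Fin 5), Perm.sign t = 1 → t ^ 30 = 1 := by decide +kernel
  have := h4g.trans (orderOf_dvd_of_pow_eq_one (h30 _ (mem_ambient.1 (hH.le g.2) rfl)))
  omega

end CfsgLib.HallSym

namespace CfsgLib.HallSym

variable {π : Set ℕ}

/-- The transitive case. -/
theorem shape_of_transitive {n c : ℕ} (hc : c ≤ 1) {H : Subgroup (Perm (Fin n))}
    (hH : IsFull π c H) (hN : Nontriv π n) (htr : IsPretransitive H (Fin n))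
    (IH : ∀ m < n, ∀ c' ≤ 1, ∀ X : Subgroup (Perm (Fin m)),
      IsFull π c' X → Nontriv π m → Shape π X) :
    Shape π H := by
  classical
  have h5 := hN.five_le
  haveI := htr
  obtain ⟨x⟩ : Nonempty (Fin n) := ⟨⟨0, by omega⟩⟩
  have hcardz := card_inf_stabilizer htr
  have hnπ : ∀ r : ℕ, r.Prime → r ∣ n → r ∈ π := fun r hr hd =>
    hH.pi r hr ((hd.trans (dvd_mul_right n _)).trans (hcardz x).dvd)
  obtain ⟨K, hK⟩ : ∃ K, K = H ⊓ stabilizer (Perm (Fin n)) x := ⟨_, rfl⟩
  set s : Finset (Fin n) := Finset.univ.erase x with hsdef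
  obtain ⟨m, rfl⟩ : ∃ m, n = m + 1 := ⟨n - 1, by omega⟩
  have hs : s.card = m := by simp [hsdef]
  have hxs : x ∉ s := by simp [hsdef]
  have hmemstab : ∀ g : Perm (Fin (m + 1)), g x = x → g ∈ setStab s := fun g hg z => by
    simp only [hsdef, Finset.mem_erase, Finset.mem_univ, and_true]
    exact ⟨fun h e => h (by rw [e, hg]), fun h e => h (g.injective (e.trans hg.symm))⟩
  have hKmem : ∀ g, g ∈ K ↔ g ∈ H ∧ g x = x := fun g => by
    rw [hK, Subgroup.mem_inf, mem_stabilizer_iff, Perm.smul_def]
  have hKs : K ≤ setStab s := fun g hg => hmemstab g ((hKmem g).1 hg).2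
  have hKcard : ∀ p, (Nat.card H).factorization p =
      (m + 1).factorization p + (Nat.card K).factorization p := fun p => by
    rw [hK, ← hcardz x, Nat.factorization_mul (by omega) Nat.card_pos.ne', Finsupp.add_apply]
  obtain ⟨hX1, hX2, hX3⟩ := restrict_spec hs hc
    (fun r hr hd => hH.pi r hr (hd.trans (Subgroup.card_dvd_of_le (hK ▸ inf_le_left)))) hKs
    ((hK ▸ inf_le_left : K ≤ H).trans hH.le) (fun p => (m + 1).factorization p)
    fun p hp hpπ => by
      have := hH.full p hp hpπ
      have := hKcard p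
      omega
  rw [show restrictType c (m + 1 - m) = c by simp [restrictType]] at hX2 hX3
  have hX : IsFull π c (restrict hs K) := ⟨hX1, hX2, fun p hp hpπ => by
    have := hX3 p hp hpπ
    rw [Nat.choose_succ_self_right] at this
    omega⟩
  obtain ⟨r₀, hr₀, hr₀n, hr₀π⟩ := hN.2
  have hr₀m : r₀ ≤ m := by
    by_contra h
    obtain rfl : r₀ = m + 1 := by omega
    exact hr₀π (hnπ _ hr₀ dvd_rfl)
  by_cases htwo : ∃ r t : ℕ, r.Prime ∧ t.Prime ∧ r ≠ t ∧ r ∈ π ∧ t ∈ π ∧ r ≤ m ∧ t ≤ m
  · have hNm : Nontriv π m := ⟨htwo, r₀, hr₀, hr₀m, hr₀π⟩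
    have hm5 := hNm.five_le
    rcases IH m (by omega) c hc _ hX hNm with
      ⟨⟨hmp, hbelow⟩, i, hi⟩ | ⟨rfl, h23, t, ht, hXt⟩ | ⟨rfl, h23, t, ht, hXt⟩
    · -- two fixed points
      exfalso
      have hLπ : IsPiSubgroup π (setStab {i} ⊓ ambient c m) := fun r hr hd =>
        isPiSubgroup_setStab (π := π) {i} (fun r hr h => by
          have hrm : r < m := by
            rw [Finset.card_singleton] at h
            rcases h with h | h <;> omega
          exact (hbelow r hr hrm.le).2 hrm) r hr
          (hd.trans (Subgroup.card_dvd_of_le inf_le_left))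
      have hL := eq_of_full_le hc (by omega) hX (le_inf hi hX.le) hLπ inf_le_right
      set y : Fin (m + 1) := ((finEquiv hs).symm i : Fin (m + 1)) with hy
      have hys : y ∈ s := ((finEquiv hs).symm i).2
      have hyx : y ≠ x := fun e => hxs (e ▸ hys)
      have hxy : ∀ g ∈ K, g y = y :=
        fix_of_restrict hs hKs (setStab_singleton i ▸ hi)
      have hKy : K = H ⊓ stabilizer (Perm (Fin (m + 1))) y := by
        refine Subgroup.eq_of_le_of_card_ge
          (fun g hg => ⟨((hKmem g).1 hg).1, hxy g hg⟩) (le_of_eq ?_)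
        rw [hK]
        exact (Nat.eq_of_mul_eq_mul_left (by omega) ((hcardz y).trans (hcardz x).symm))
      obtain ⟨a, hax, hay⟩ : ∃ a, a ≠ x ∧ a ≠ y := by
        have : 0 < ((Finset.univ.erase x).erase y).card := by
          rw [Finset.card_erase_of_mem hys, hs]; omega
        obtain ⟨a, ha⟩ := Finset.card_pos.1 this
        simp only [Finset.mem_erase, Finset.mem_univ, and_true] at ha
        exact ⟨a, ha.2, ha.1⟩
      obtain ⟨g, hga⟩ := exists_smul_eq H x a
      change (g : Perm (Fin (m + 1))) x = a at hga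
      have hya : ∀ k ∈ H, k a = a → k (g.1 y) = g.1 y := by
        intro k hk hka
        have h1 : g.1⁻¹ * k * g.1 ∈ K := by
          refine (hKmem _).2 ⟨H.mul_mem (H.mul_mem (H.inv_mem g.2) hk) g.2, ?_⟩
          rw [Perm.mul_apply, Perm.mul_apply, hga, hka, Perm.inv_eq_iff_eq]
          exact hga.symm
        have h2 := hxy _ h1
        rw [Perm.mul_apply, Perm.mul_apply, Perm.inv_eq_iff_eq] at h2
        exact h2
      have hna : g.1 y ≠ a := fun e => hyx (g.1.injective (e.trans hga.symm))
      -- even permutations fixing both points lie in `H`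
      have hmem : ∀ γ : Perm (Fin (m + 1)), Perm.sign γ = 1 → γ x = x → γ y = y → γ ∈ H := by
        intro γ hγ hγx hγy
        refine (mem_of_stab hs rfl hxs (hK ▸ hL) (fun _ => hγ) (hmemstab γ hγx) ?_).1
        rw [setStab_singleton, mem_stabilizer_iff, Perm.smul_def]
        have := restrictHom_apply hs ⟨γ, hmemstab γ hγx⟩ ((finEquiv hs).symm i)
        rw [Equiv.apply_symm_apply] at this
        rw [this]
        exact (congrArg (finEquiv hs) (Subtype.ext hγy)).trans ((finEquiv hs).apply_symm_apply i)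
      by_cases hyy : g.1 y = x ∨ g.1 y = y
      · have hle : H ⊓ stabilizer (Perm (Fin (m + 1))) a ≤ K := by
          intro k hk
          have h1 := hya k hk.1 hk.2
          rcases hyy with e | e <;> rw [e] at h1
          · exact (hKmem k).2 ⟨hk.1, h1⟩
          · rw [hKy]
            exact ⟨hk.1, h1⟩
        have heq := Subgroup.eq_of_le_of_card_ge hle (le_of_eq
          (by rw [hK]; exact Nat.eq_of_mul_eq_mul_left (by omega) ((hcardz x).trans (hcardz a).symm)))
        obtain ⟨b, hbP, hba⟩ : ∃ b, b ∈ (Finset.univ.erase x).erase y ∧ b ≠ a := by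
          have : 0 < (((Finset.univ.erase x).erase y).erase a).card := by
            rw [Finset.card_erase_of_mem (by simp [hax, hay]), Finset.card_erase_of_mem hys, hs]
            omega
          obtain ⟨b, hb⟩ := Finset.card_pos.1 this
          exact ⟨b, (Finset.mem_erase.1 hb).2, (Finset.mem_erase.1 hb).1⟩
        obtain ⟨γ, -, hγs, hγa, hγout, -⟩ := exists_cycle
          (part := (Finset.univ.erase x).erase y)
          (by rw [Finset.card_erase_of_mem hys, hs]; omega) (a := a) (b := b)
          (by simp [hax, hay]) hbP hba.symm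
        have hγx : γ x = x := hγout x (by simp)
        have hγy : γ y = y := hγout y (by simp)
        have : γ ∈ H ⊓ stabilizer (Perm (Fin (m + 1))) a :=
          heq ▸ ((hKmem γ).2 ⟨hmem γ hγs hγx hγy, hγx⟩)
        exact hba (hγa.symm.trans this.2)
      · simp only [not_or] at hyy
        have hmem' : g.1 y ∈ ((Finset.univ.erase x).erase y).erase a := by simp [hna, hyy.1, hyy.2]
        have hcard3 : (((Finset.univ.erase x).erase y).erase a).card = m - 2 := by
          rw [Finset.card_erase_of_mem (by simp [hax, hay]), Finset.card_erase_of_mem hys, hs]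
          omega
        obtain ⟨b, hbP, hba⟩ : ∃ b, b ∈ ((Finset.univ.erase x).erase y).erase a ∧ b ≠ g.1 y := by
          have : 0 < ((((Finset.univ.erase x).erase y).erase a).erase (g.1 y)).card := by
            rw [Finset.card_erase_of_mem hmem', hcard3]
            omega
          obtain ⟨b, hb⟩ := Finset.card_pos.1 this
          exact ⟨b, (Finset.mem_erase.1 hb).2, (Finset.mem_erase.1 hb).1⟩
        obtain ⟨γ, -, hγs, hγy', hγout, -⟩ := exists_cycle
          (part := ((Finset.univ.erase x).erase y).erase a) (by rw [hcard3]; omega)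
          hmem' hbP hba.symm
        exact hba (hγy'.symm.trans (hya γ (hmem γ hγs (hγout x (by simp)) (hγout y (by simp)))
          (hγout a (by simp))))
    · -- degree eight: a partition into two four-element sets
      have hLπ : IsPiSubgroup π (setStab t ⊓ ambient c 7) := fun r hr hd =>
        isPiSubgroup_setStab (π := π) t (fun r hr h => by
          rw [ht] at h
          have : r ≤ 4 := by omega
          rcases (show r = 0 ∨ r = 1 ∨ r = 2 ∨ r = 3 ∨ r = 4 by omega) with
            rfl | rfl | rfl | rfl | rfl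
          · exact absurd hr Nat.not_prime_zero
          · exact absurd hr Nat.not_prime_one
          · exact (h23 2 hr (by norm_num)).2 (Or.inl rfl)
          · exact (h23 3 hr (by norm_num)).2 (Or.inr rfl)
          · exact absurd hr (by norm_num)) r hr
          (hd.trans (Subgroup.card_dvd_of_le inf_le_left))
      have hL := eq_of_full_le hc (by norm_num) hX (le_inf hXt hX.le) hLπ inf_le_right
      set T := pullback hs t with hT
      have hTs : T ⊆ s := fun z hz => ((mem_pullback hs).1 hz).1
      have hTc : T.card = 3 := by rw [hT, card_pullback, ht]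
      have hUc : (s \ T).card = 4 := by rw [Finset.card_sdiff_of_subset hTs, hs, hTc]
      have hcyc : ∀ part : Finset (Fin 8), part = T ∨ part = s \ T → ∀ a ∈ part, ∀ b ∈ part,
          a ≠ b → ∃ γ ∈ H, IsThreeCycle γ ∧ γ x = x ∧ γ a = b := by
        intro part hpart a ha b hb hab
        have hps : part ⊆ s := by
          rcases hpart with rfl | rfl
          · exact hTs
          · exact Finset.sdiff_subset
        obtain ⟨γ, h3c, hγs, hγab, hγout, hγpart⟩ := exists_cycle
          (by rcases hpart with rfl | rfl <;> omega) ha hb hab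
        have hγx : γ x = x := hγout x fun h => hxs (hps h)
        have hγT : γ ∈ setStab T := by
          rcases hpart with rfl | rfl
          · exact hγpart
          · intro z
            by_cases hz : z ∈ s \ T
            · have h1 := (hγpart z).2 hz
              rw [Finset.mem_sdiff] at h1 hz
              exact iff_of_false h1.2 hz.2
            · rw [hγout z hz]
        refine ⟨γ, (mem_of_stab hs rfl hxs (hK ▸ hL) (fun _ => hγs) (hmemstab γ hγx) ?_).1,
          h3c, hγx, hγab⟩
        intro j
        obtain ⟨z, rfl⟩ := (finEquiv hs).surjective j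
        rw [restrictHom_apply]
        have h1 := hγT z.1
        rw [hT, mem_pullback, mem_pullback] at h1
        exact ⟨fun h => (h1.1 ⟨(hmemstab γ hγx z.1).2 z.2, h⟩).2, fun h => (h1.2 ⟨z.2, h⟩).2⟩
      obtain ⟨u, v, hu, hv, huv⟩ := Finset.one_lt_card_iff.1 (show 1 < T.card by omega)
      by_cases hprim : ∀ B : Set (Fin 8), x ∈ B → IsBlock H B → IsTrivialBlock B
      · exfalso
        have hpre : IsPreprimitive H (Fin 8) :=
          IsPreprimitive.of_isTrivialBlock_base x fun {B} hB hB' => hprim B hB hB'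
        obtain ⟨γ, hγH, h3c, -, -⟩ := hcyc T (Or.inl rfl) u hu v hv huv
        have hA := alternatingGroup_le_of_isPreprimitive_of_isThreeCycle_mem hpre h3c hγH
        have h5' : 5 ∣ Nat.card (alternatingGroup (Fin 8)) := by
          rw [nat_card_alternatingGroup, Nat.card_fin]
          decide
        have h5π := hH.pi 5 (by norm_num) (h5'.trans (Subgroup.card_dvd_of_le hA))
        rcases (h23 5 (by norm_num) (by norm_num)).1 h5π with h | h <;> omega
      · simp only [not_forall, exists_prop] at hprim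
        obtain ⟨B, hxB, hB, hBt⟩ := hprim
        simp only [IsTrivialBlock, not_or] at hBt
        have hinv : ∀ γ : Perm (Fin 8), γ ∈ H → γ x = x → ∀ a ∈ B, γ a ∈ B := by
          intro γ hγ hγx a ha
          have h1 : (⟨γ, hγ⟩ : H) • B = B :=
            hB.stabilizer_le hxB (show (⟨γ, hγ⟩ : H) ∈ stabilizer H x from hγx)
          have h2 : (⟨γ, hγ⟩ : H) • a ∈ (⟨γ, hγ⟩ : H) • B := Set.smul_mem_smul_set ha
          rwa [h1] at h2
        have hwhole : ∀ part : Finset (Fin 8), part = T ∨ part = s \ T → ∀ a ∈ part, a ∈ B →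
            (part : Set (Fin 8)) ⊆ B := by
          intro part hpart a ha haB b hb
          by_cases hab : a = b
          · exact hab ▸ haB
          obtain ⟨γ, hγH, -, hγx, hγab⟩ := hcyc part hpart a ha b hb hab
          exact hγab ▸ hinv γ hγH hγx a haB
        obtain ⟨F, hF⟩ : ∃ F : Finset (Fin 8), (F : Set (Fin 8)) = B :=
          ⟨B.toFinset, Set.coe_toFinset B⟩
        have hdvd : F.card ∣ 8 := by
          have := hB.ncard_dvd_card ⟨x, hxB⟩
          rwa [← hF, Set.ncard_coe_finset, Nat.card_fin] at this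
        have hxF : x ∈ F := by rw [← Finset.mem_coe, hF]; exact hxB
        have hF1 : 1 < F.card := by
          by_contra hle
          apply hBt.1
          rw [← hF]
          exact Finset.card_le_one_iff_subsingleton.1 (not_lt.1 hle)
        have hFu : F ≠ Finset.univ := fun e => hBt.2 (by rw [← hF, e, Finset.coe_univ])
        have hcases : ∀ z ∈ F, z = x ∨ z ∈ T ∨ z ∈ s \ T := fun z _ => by
          by_cases hz : z = x
          · exact Or.inl hz
          · have hzs : z ∈ s := by simp [hsdef, hz]
            by_cases hzT : z ∈ T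
            · exact Or.inr (Or.inl hzT)
            · exact Or.inr (Or.inr (Finset.mem_sdiff.2 ⟨hzs, hzT⟩))
        have hwholeF : ∀ part : Finset (Fin 8), part = T ∨ part = s \ T →
            ∀ a ∈ part, a ∈ F → part ⊆ F := fun part hp a ha haF => by
          rw [← Finset.coe_subset, hF]
          exact hwhole part hp a ha (hF ▸ (Finset.mem_coe.2 haF))
        have hnoU : ∀ a ∈ s \ T, a ∉ F := by
          intro a ha haF
          have hsub : insert x (s \ T) ⊆ F := Finset.insert_subset hxF (hwholeF _ (Or.inr rfl) a ha haF)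
          have h1 := Finset.card_le_card hsub
          rw [Finset.card_insert_of_notMem (fun h => hxs (Finset.mem_sdiff.1 h).1), hUc] at h1
          have h2 := Finset.card_le_univ F
          rw [Fintype.card_fin] at h2
          have h3 : F.card ≠ 8 := fun e => hFu (Finset.eq_univ_of_card F (by simp [e]))
          interval_cases hc8 : F.card <;> omega
        have hTF : T ⊆ F := by
          obtain ⟨a, ha, hax⟩ := Finset.exists_mem_ne hF1 x
          rcases hcases a ha with h | h | h
          · exact absurd h hax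
          · exact hwholeF T (Or.inl rfl) a h ha
          · exact absurd ha (hnoU a h)
        have hFeq : F = insert x T := by
          refine le_antisymm (fun z hz => ?_) (Finset.insert_subset hxF hTF)
          rcases hcases z hz with h | h | h
          · simp [h]
          · simp [h]
          · exact absurd hz (hnoU z h)
        have hF4 : F.card = 4 := by
          rw [hFeq, Finset.card_insert_of_notMem fun h => hxs (hTs h), hTc]
        refine Or.inr (Or.inr ⟨rfl, fun r hr hr8 => ?_, F, hF4, fun g hg => ?_⟩)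
        · exact h23 r hr (by rcases eq_or_lt_of_le hr8 with rfl | h
                             · exact absurd hr (by norm_num)
                             · omega)
        · by_cases hne : ((⟨g, hg⟩ : H) • B ∩ B).Nonempty
          · refine Or.inl fun z => ?_
            have h1 := hB.smul_eq_of_nonempty hne
            rw [← Finset.mem_coe, ← Finset.mem_coe, hF]
            conv_lhs => rw [← h1]
            exact Set.smul_mem_smul_set_iff (a := (⟨g, hg⟩ : H))
          · refine Or.inr fun z => ⟨fun hgz hz => hne ⟨g z, ?_, hF ▸ hgz⟩, fun hz => ?_⟩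
            · exact Set.smul_mem_smul_set (a := (⟨g, hg⟩ : H)) (hF ▸ hz)
            · by_contra hgz
              have hsub : F.image g ⊆ Fᶜ := fun w hw => by
                obtain ⟨w', hw', rfl⟩ := Finset.mem_image.1 hw
                rw [Finset.mem_compl]
                intro hw''
                exact hne ⟨g w', Set.smul_mem_smul_set (a := (⟨g, hg⟩ : H))
                  (hF ▸ Finset.mem_coe.2 hw'), hF ▸ Finset.mem_coe.2 hw''⟩
              have heq := Finset.eq_of_subset_of_card_le hsub (by
                rw [Finset.card_compl, Fintype.card_fin, Finset.card_image_of_injective _ g.injective]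
                omega)
              have : g z ∈ F.image g := heq ▸ Finset.mem_compl.2 hgz
              obtain ⟨w', hw', hww⟩ := Finset.mem_image.1 this
              exact hz (g.injective hww ▸ hw')
    · -- degree nine
      exfalso
      have hLπ : IsPiSubgroup π (partStab t ⊓ ambient c 8) := fun r hr hd =>
        isPiSubgroup_partStab ht h23 r hr (hd.trans (Subgroup.card_dvd_of_le inf_le_left))
      have hL := eq_of_full_le hc (by norm_num) hX (le_inf hXt hX.le) hLπ inf_le_right
      set T := pullback hs t with hT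
      have hTs : T ⊆ s := fun z hz => ((mem_pullback hs).1 hz).1
      have hTc : T.card = 4 := by rw [hT, card_pullback, ht]
      have hUc : (s \ T).card = 4 := by rw [Finset.card_sdiff_of_subset hTs, hs, hTc]
      have hcyc : ∀ part : Finset (Fin 9), part = T ∨ part = s \ T → ∀ a ∈ part, ∀ b ∈ part,
          a ≠ b → ∃ γ ∈ H, IsThreeCycle γ ∧ γ x = x ∧ γ a = b := by
        intro part hpart a ha b hb hab
        have hps : part ⊆ s := by
          rcases hpart with rfl | rfl
          · exact hTs
          · exact Finset.sdiff_subset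
        obtain ⟨γ, h3c, hγs, hγab, hγout, hγpart⟩ := exists_cycle
          (by rcases hpart with rfl | rfl <;> omega) ha hb hab
        have hγx : γ x = x := hγout x fun h => hxs (hps h)
        have hγT : γ ∈ setStab T := by
          rcases hpart with rfl | rfl
          · exact hγpart
          · intro z
            by_cases hz : z ∈ s \ T
            · have h1 := (hγpart z).2 hz
              rw [Finset.mem_sdiff] at h1 hz
              exact iff_of_false h1.2 hz.2
            · rw [hγout z hz]
        refine ⟨γ, (mem_of_stab hs rfl hxs (hK ▸ hL) (fun _ => hγs) (hmemstab γ hγx) ?_).1,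
          h3c, hγx, hγab⟩
        refine Or.inl fun j => ?_
        obtain ⟨z, rfl⟩ := (finEquiv hs).surjective j
        rw [restrictHom_apply]
        have h1 := hγT z.1
        rw [hT, mem_pullback, mem_pullback] at h1
        exact ⟨fun h => (h1.1 ⟨(hmemstab γ hγx z.1).2 z.2, h⟩).2, fun h => (h1.2 ⟨z.2, h⟩).2⟩
      obtain ⟨u, v, hu, hv, huv⟩ := Finset.one_lt_card_iff.1 (show 1 < T.card by omega)
      have hpre : IsPreprimitive H (Fin 9) := by
        refine IsPreprimitive.of_isTrivialBlock_base x fun {B} hxB hB => ?_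
        by_contra hBt
        simp only [IsTrivialBlock, not_or] at hBt
        obtain ⟨F, hF⟩ : ∃ F : Finset (Fin 9), (F : Set (Fin 9)) = B :=
          ⟨B.toFinset, Set.coe_toFinset B⟩
        have hdvd : F.card ∣ 9 := by
          have := hB.ncard_dvd_card ⟨x, hxB⟩
          rwa [← hF, Set.ncard_coe_finset, Nat.card_fin] at this
        have hxF : x ∈ F := by rw [← Finset.mem_coe, hF]; exact hxB
        have hF1 : 1 < F.card := by
          by_contra hle
          apply hBt.1
          rw [← hF]
          exact Finset.card_le_one_iff_subsingleton.1 (not_lt.1 hle)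
        have hFu : F ≠ Finset.univ := fun e => hBt.2 (by rw [← hF, e, Finset.coe_univ])
        obtain ⟨a, ha, hax⟩ := Finset.exists_mem_ne hF1 x
        obtain ⟨part, hpart, hap, hpc⟩ : ∃ part, (part = T ∨ part = s \ T) ∧ a ∈ part ∧
            part.card = 4 ∧ x ∉ part := by
          have has : a ∈ s := by simp [hsdef, hax]
          by_cases haT : a ∈ T
          · exact ⟨T, Or.inl rfl, haT, hTc, fun h => hxs (hTs h)⟩
          · exact ⟨s \ T, Or.inr rfl, Finset.mem_sdiff.2 ⟨has, haT⟩, hUc,
              fun h => hxs (Finset.mem_sdiff.1 h).1⟩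
        have hsub : insert x part ⊆ F := by
          refine Finset.insert_subset hxF fun b hb => ?_
          by_cases hab : a = b
          · exact hab ▸ ha
          obtain ⟨γ, hγH, -, hγx, hγab⟩ := hcyc part hpart a hap b hb hab
          have h1 : (⟨γ, hγH⟩ : H) • B = B :=
            hB.stabilizer_le hxB (show (⟨γ, hγH⟩ : H) ∈ stabilizer H x from hγx)
          have h2 : (⟨γ, hγH⟩ : H) • a ∈ (⟨γ, hγH⟩ : H) • B :=
            Set.smul_mem_smul_set (hF ▸ Finset.mem_coe.2 ha)
          rw [h1, ← hF, Finset.mem_coe] at h2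
          exact hγab ▸ h2
        have h1 := Finset.card_le_card hsub
        rw [Finset.card_insert_of_notMem hpc.2, hpc.1] at h1
        have h2 := Finset.card_le_univ F
        rw [Fintype.card_fin] at h2
        have h3 : F.card ≠ 9 := fun e => hFu (Finset.eq_univ_of_card F (by simp [e]))
        interval_cases hc9 : F.card <;> omega
      obtain ⟨γ, hγH, h3c, -, -⟩ := hcyc T (Or.inl rfl) u hu v hv huv
      have hA := alternatingGroup_le_of_isPreprimitive_of_isThreeCycle_mem hpre h3c hγH
      have h5' : 5 ∣ Nat.card (alternatingGroup (Fin 9)) := by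
        rw [nat_card_alternatingGroup, Nat.card_fin]
        decide
      have h5π := hH.pi 5 (by norm_num) (h5'.trans (Subgroup.card_dvd_of_le hA))
      rcases (h23 5 (by norm_num) (by norm_num)).1 h5π with h | h <;> omega
  · -- prime degree
    exfalso
    obtain ⟨a, b, ha, hb, hab, haπ, hbπ, han, hbn⟩ := hN.1
    have hn : (m + 1).Prime := by
      by_contra hn
      exact htwo ⟨a, b, ha, hb, hab, haπ, hbπ,
        Nat.lt_succ_iff.1 (lt_of_le_of_ne han fun e => hn ((show a = m + 1 from e) ▸ ha)),
        Nat.lt_succ_iff.1 (lt_of_le_of_ne hbn fun e => hn ((show b = m + 1 from e) ▸ hb))⟩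
    obtain ⟨p, hp, hpm, hpπ⟩ : ∃ p, p.Prime ∧ p ≤ m ∧ p ∈ π := by
      rcases eq_or_lt_of_le han with h | h
      · exact ⟨b, hb, by omega, hbπ⟩
      · exact ⟨a, ha, by omega, haπ⟩
    have hpne : p ≠ m := fun e => by
      rcases hp.eq_two_or_odd with h2 | h2
      · omega
      · rcases hn.eq_two_or_odd with h3 | h3 <;> omega
    refine false_of_prime_degree hn h5 hc hp (by omega) hpπ (fun r hr hrn hrπ => ?_) hH htr
    by_contra hne
    simp only [not_or] at hne
    exact htwo ⟨r, p, hr, hp, hne.1, hrπ, hpπ, by omega, hpm⟩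

/-- Hall subgroups of symmetric and alternating groups for non-trivial prime sets. -/
theorem classify : ∀ (n c : ℕ), c ≤ 1 → ∀ H : Subgroup (Perm (Fin n)), IsFull π c H →
    Nontriv π n → Shape π H := by
  intro n
  induction n using Nat.strong_induction_on with
  | _ n IH =>
    intro c hc H hH hN
    classical
    have h5 := hN.five_le
    let o : Finset (Fin n) := Finset.univ.filter fun y => ∃ h ∈ H, h ⟨0, by omega⟩ = y
    by_cases ho : o = Finset.univ
    · refine shape_of_transitive hc hH hN ⟨fun a b => ?_⟩ IH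
      have ha : a ∈ o := ho ▸ Finset.mem_univ a
      have hb : b ∈ o := ho ▸ Finset.mem_univ b
      simp only [o, Finset.mem_filter, Finset.mem_univ, true_and] at ha hb
      obtain ⟨g, hg, rfl⟩ := ha
      obtain ⟨k, hk, rfl⟩ := hb
      refine ⟨⟨k * g⁻¹, H.mul_mem hk (H.inv_mem hg)⟩, ?_⟩
      change (k * g⁻¹) (g ⟨0, _⟩) = _
      rw [Perm.mul_apply, ← Perm.mul_apply g⁻¹, inv_mul_cancel, Perm.one_apply]
    · refine shape_of_intransitive hc hH hN IH (o := o) (Finset.card_pos.2 ⟨⟨0, by omega⟩, by
        simp only [o, Finset.mem_filter, Finset.mem_univ, true_and]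
        exact ⟨1, H.one_mem, rfl⟩⟩) ?_ ?_
      · exact ((Finset.card_lt_univ_of_notMem (Finset.eq_univ_iff_forall.not.1 ho |> fun h =>
          (not_forall.1 h).choose_spec)).trans_eq (Fintype.card_fin n))
      · intro g hg y
        simp only [o, Finset.mem_filter, Finset.mem_univ, true_and]
        constructor
        · rintro ⟨h, hh, e⟩
          exact ⟨g⁻¹ * h, H.mul_mem (H.inv_mem hg) hh, by
            rw [Perm.mul_apply, e, ← Perm.mul_apply, inv_mul_cancel, Perm.one_apply]⟩
        · rintro ⟨h, hh, e⟩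
          exact ⟨g * h, H.mul_mem hg hh, by rw [Perm.mul_apply, e]⟩

end CfsgLib.HallSym
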