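import Cfsg.Agent.Perm57.HallSym.Classify
import Cfsg.Agent.Perm57.HallUniversal

/-!
Consequences of the classification of Hall subgroups of symmetric and alternating groups.
-/

set_option autoImplicit false
set_option linter.style.haveILetI false

open Cfsg Equiv Equiv.Perm
open scoped Nat

namespace CfsgLib.HallSym

variable {π : Set ℕ}

section general

variable {G : Type*} [Group G]

/-- A Hall subgroup contains every `π`-subgroup containing it. -/
theorem eq_of_isPiHall_le [Finite G] {H K : Subgroup G} (hH : IsPiHall π H) (hHK : H ≤ K)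
    (hK : IsPiSubgroup π K) : H = K := by
  refine le_antisymm hHK ?_
  rw [← Subgroup.relIndex_eq_one]
  by_contra hne
  obtain ⟨r, hr, hrd⟩ := Nat.exists_prime_and_dvd hne
  exact hH.2 r hr (hK r hr (hrd.trans (Subgroup.relIndex_dvd_card H K)))
    (hrd.trans (Subgroup.relIndex_dvd_index_of_le hHK))

/-- Hall subgroups are maximal `π`-subgroups. -/
theorem maximal_of_isPiHall [Finite G] {H : Subgroup G} (hH : IsPiHall π H) :
    Maximal (IsPiSubgroup π) H :=
  ⟨hH.1, fun _ hK hle => (eq_of_isPiHall_le hH hle hK).ge⟩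

/-- In a `D_π`-group maximal `π`-subgroups are Hall. -/
theorem isPiHall_of_maximal [Finite G] (hD : IsDPiGroup π G) {K : Subgroup G}
    (hK : Maximal (IsPiSubgroup π) K) : IsPiHall π K := by
  obtain ⟨H, hH⟩ := HallUniversal.ePi_of_dPi hD
  obtain ⟨g, rfl⟩ := hD H K (maximal_of_isPiHall hH) hK
  exact HallUniversal.isPiHall_map_conj hH g

theorem cPi_of_dPi [Finite G] (hD : IsDPiGroup π G) : IsCPiGroup π G :=
  ⟨HallUniversal.ePi_of_dPi hD,
    fun H K hH hK => hD H K (maximal_of_isPiHall hH) (maximal_of_isPiHall hK)⟩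

/-- Sets of primes agreeing on the divisors of the order give the same `D_π`. -/
theorem dPi_congr [Finite G] {σ : Set ℕ}
    (h : ∀ p : ℕ, p.Prime → p ∣ Nat.card G → (p ∈ π ↔ p ∈ σ)) (hD : IsDPiGroup σ G) :
    IsDPiGroup π G := by
  have e : IsPiSubgroup π (G := G) = IsPiSubgroup σ := funext fun K => propext
    ⟨fun hK p hp hd => (h p hp (hd.trans (Subgroup.card_subgroup_dvd_card K))).1 (hK p hp hd),
      fun hK p hp hd => (h p hp (hd.trans (Subgroup.card_subgroup_dvd_card K))).2 (hK p hp hd)⟩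
  intro H K hH hK
  rw [e] at hH hK
  exact hD H K hH hK

/-- A Hall subgroup meets a normal subgroup in a Hall subgroup. -/
theorem isPiHall_subgroupOf [Finite G] (A : Subgroup G) [A.Normal] {H : Subgroup G}
    (hH : IsPiHall π H) : IsPiHall π (H.subgroupOf A) := by
  have hc : Nat.card (H.subgroupOf A) = Nat.card (H ⊓ A : Subgroup G) := by
    rw [← Subgroup.card_map_of_injective A.subtype_injective, Subgroup.subgroupOf_map_subtype]
  refine ⟨fun p hp hd => hH.1 p hp
    ((hc ▸ hd).trans (Subgroup.card_dvd_of_le inf_le_left)), fun p hp hpπ hd => ?_⟩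
  have h1 : Nat.card H ∣ Nat.card (H ⊓ A : Subgroup G) * A.index := by
    have h3 := Subgroup.card_mul_index (A.subgroupOf H)
    have h4 : Nat.card (A.subgroupOf H) = Nat.card (H ⊓ A : Subgroup G) := by
      rw [← Subgroup.card_map_of_injective H.subtype_injective, Subgroup.subgroupOf_map_subtype,
        inf_comm]
    rw [← h3, h4]
    exact Nat.mul_dvd_mul_left _ (Subgroup.relIndex_dvd_index_of_normal A H)
  have h2 : Nat.card A * A.index ∣ Nat.card (H ⊓ A : Subgroup G) * A.index * H.index := by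
    rw [Subgroup.card_mul_index, ← Subgroup.card_mul_index H]
    exact Nat.mul_dvd_mul_right h1 _
  rw [← Subgroup.card_mul_index (H.subgroupOf A), hc, mul_right_comm, mul_assoc, mul_assoc,
    Nat.mul_dvd_mul_iff_left Nat.card_pos] at h2
  exact hH.2 p hp hpπ (hd.trans
    ((Nat.mul_dvd_mul_iff_left (Nat.pos_of_ne_zero Subgroup.index_ne_zero_of_finite)).1 h2))

/-- Trivial prime sets give `D_π` for groups of order dividing `n!`. -/
theorem dPi_of_trivial [Finite G] {n : ℕ} (hG : Nat.card G ∣ n !) (h : ¬ Nontriv π n) :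
    IsDPiGroup π G := by
  have hle : ∀ p : ℕ, p.Prime → p ∣ Nat.card G → p ≤ n :=
    fun p hp hd => hp.dvd_factorial.1 (hd.trans hG)
  by_cases hone : ∀ a b : ℕ, a.Prime → b.Prime → a ∈ π → b ∈ π → a ≤ n → b ≤ n → a = b
  · refine dPi_congr (σ := {p ∈ π | p ≤ n})
      (fun p hp hd => ⟨fun h => ⟨h, hle p hp hd⟩, fun h => h.1⟩) ?_
    exact HallUniversal.dPi_of_subsingleton
      fun a b ha hb haπ hbπ => hone a b ha hb haπ.1 hbπ.1 haπ.2 hbπ.2
  · simp only [not_forall, exists_prop] at hone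
    obtain ⟨a, b, ha, hb, haπ, hbπ, han, hbn, hab⟩ := hone
    refine dPi_congr (σ := {p | p ∈ π ∨ n < p}) (fun p hp hd =>
      ⟨fun h => Or.inl h, fun h => h.resolve_right (not_lt.2 (hle p hp hd))⟩) ?_
    refine HallUniversal.dPi_of_all fun p hp => ?_
    by_contra hc
    simp only [Set.mem_setOf_eq, not_or, not_lt] at hc
    exact h ⟨⟨a, b, ha, hb, hab, haπ, hbπ, han, hbn⟩, p, hp, hc.2, hc.1⟩

end general

theorem card_perm_fin (n : ℕ) : Nat.card (Perm (Fin n)) = n ! := by
  rw [Nat.card_perm, Nat.card_fin]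

theorem card_alt_dvd (n : ℕ) : Nat.card (alternatingGroup (Fin n)) ∣ n ! :=
  card_perm_fin n ▸ Subgroup.card_subgroup_dvd_card _

theorem ambient_zero (n : ℕ) : ambient 0 n = ⊤ := by simp [ambient]

theorem ambient_one (n : ℕ) : ambient 1 n = alternatingGroup (Fin n) := by simp [ambient]

theorem isFull_of_isPiHall {n : ℕ} {H : Subgroup (Perm (Fin n))} (hH : IsPiHall π H) :
    IsFull π 0 H := by
  refine ⟨hH.1, by rw [ambient_zero]; exact le_top, fun p hp hpπ => ?_⟩
  rw [← card_perm_fin, ← Subgroup.card_mul_index H, Nat.factorization_mul Nat.card_pos.ne'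
    Subgroup.index_ne_zero_of_finite, Finsupp.add_apply,
    Nat.factorization_eq_zero_of_not_dvd (hH.2 p hp hpπ), delta_zero]

theorem isPiHall_of_isFull {n : ℕ} {H : Subgroup (Perm (Fin n))} (hH : IsFull π 0 H) :
    IsPiHall π H := by
  refine ⟨hH.pi, fun p hp hpπ hd => ?_⟩
  have h1 := hH.full p hp hpπ
  rw [← card_perm_fin, ← Subgroup.card_mul_index H, Nat.factorization_mul Nat.card_pos.ne'
    Subgroup.index_ne_zero_of_finite, Finsupp.add_apply, delta_zero] at h1
  have h2 := (hp.dvd_iff_one_le_factorization Subgroup.index_ne_zero_of_finite).1 hd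
  omega

theorem isFull_map_of_isPiHall {n : ℕ} (hn : 2 ≤ n) {M : Subgroup (alternatingGroup (Fin n))}
    (hM : IsPiHall π M) : IsFull π 1 (M.map (alternatingGroup (Fin n)).subtype) := by
  have hc : Nat.card (M.map (alternatingGroup (Fin n)).subtype) = Nat.card M :=
    Subgroup.card_map_of_injective (alternatingGroup (Fin n)).subtype_injective
  refine ⟨fun p hp hd => hM.1 p hp (hc ▸ hd),
    by rw [ambient_one]; exact Subgroup.map_subtype_le M, fun p hp hpπ => ?_⟩
  rw [hc, ← factorization_card_ambient (c := 1) le_rfl hn p]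
  have h := Subgroup.card_mul_index M
  have h2 : (Nat.card (ambient 1 n)).factorization p = (Nat.card M).factorization p := by
    rw [show Nat.card (ambient 1 n) = Nat.card (alternatingGroup (Fin n)) by rw [ambient_one], ← h,
      Nat.factorization_mul Nat.card_pos.ne' Subgroup.index_ne_zero_of_finite, Finsupp.add_apply,
      Nat.factorization_eq_zero_of_not_dvd (hM.2 p hp hpπ), add_zero]
  omega

/-- The standard Hall subgroups for non-trivial prime sets. -/
def IsModel {n : ℕ} (π : Set ℕ) (L : Subgroup (Perm (Fin n))) : Prop :=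
  (IsBelow π n ∧ ∃ x, L = setStab {x}) ∨
  (n = 7 ∧ IsTwoThree π n ∧ ∃ s : Finset (Fin n), s.card = 3 ∧ L = setStab s) ∨
  (n = 8 ∧ IsTwoThree π n ∧ ∃ s : Finset (Fin n), s.card = 4 ∧ L = partStab s)

/-- Full if the cofactor in `n!` has no prime of `π`. -/
theorem isPiHall_of_card {n i : ℕ} {L : Subgroup (Perm (Fin n))}
    (h : Nat.card L * i = n !) (hL : IsPiSubgroup π L)
    (hi : ∀ p : ℕ, p.Prime → p ∈ π → ¬ p ∣ i) : IsPiHall π L := by
  refine ⟨hL, fun p hp hpπ => ?_⟩
  have h1 := Subgroup.card_mul_index L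
  rw [card_perm_fin, ← h] at h1
  rw [Nat.eq_of_mul_eq_mul_left Nat.card_pos h1]
  exact hi p hp hpπ

theorem IsModel.isPiHall {n : ℕ} {L : Subgroup (Perm (Fin n))} (h : IsModel π L) :
    IsPiHall π L := by
  rcases h with ⟨⟨hn, hb⟩, x, rfl⟩ | ⟨rfl, h23, s, hs, rfl⟩ | ⟨rfl, h23, s, hs, rfl⟩
  · refine isPiHall_of_card (i := n) ?_ (isPiSubgroup_setStab _ fun r hr h => ?_) fun p hp hpπ hd => ?_
    · rw [card_setStab, Finset.card_singleton, Nat.factorial_one, one_mul, mul_comm,
        Nat.mul_factorial_pred hn.ne_zero]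
    · have := hn.two_le
      have := hr.two_le
      rw [Finset.card_singleton] at h
      exact (hb r hr (by omega)).2 (by omega)
    · obtain rfl := (Nat.prime_dvd_prime_iff_eq hp hn).1 hd
      exact lt_irrefl p ((hb p hp le_rfl).1 hpπ)
  · refine isPiHall_of_card (i := 35) (by rw [card_setStab, hs]; decide)
      (isPiSubgroup_setStab _ fun r hr h => ?_) fun p hp hpπ hd => ?_
    · rw [hs] at h
      have hr4 : r ≤ 4 := by omega
      have := hr.two_le
      refine (h23 r hr (by omega)).2 ?_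
      interval_cases r
      · exact Or.inl rfl
      · exact Or.inr rfl
      · exact absurd hr (by decide)
    · have h35 : (35 : ℕ) = 5 * 7 := rfl
      rw [h35] at hd
      rcases hp.dvd_mul.1 hd with h | h
      · obtain rfl := (Nat.prime_dvd_prime_iff_eq hp (by norm_num)).1 h
        have := (h23 5 hp (by norm_num)).1 hpπ
        omega
      · obtain rfl := (Nat.prime_dvd_prime_iff_eq hp (by norm_num)).1 h
        have := (h23 7 hp (by norm_num)).1 hpπ
        omega
  · refine isPiHall_of_card (i := 35)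
      (by rw [card_partStab s (by omega) (by norm_num), hs]; decide)
      (isPiSubgroup_partStab hs h23) fun p hp hpπ hd => ?_
    have h35 : (35 : ℕ) = 5 * 7 := rfl
    rw [h35] at hd
    rcases hp.dvd_mul.1 hd with h | h
    · obtain rfl := (Nat.prime_dvd_prime_iff_eq hp (by norm_num)).1 h
      have := (h23 5 hp (by norm_num)).1 hpπ
      omega
    · obtain rfl := (Nat.prime_dvd_prime_iff_eq hp (by norm_num)).1 h
      have := (h23 7 hp (by norm_num)).1 hpπ
      omega

/-- A full subgroup is the trace of a standard Hall subgroup on the ambient group. -/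
theorem exists_model {n c : ℕ} (hc : c ≤ 1) {H : Subgroup (Perm (Fin n))} (hH : IsFull π c H)
    (hN : Nontriv π n) : ∃ L, IsModel π L ∧ H = L ⊓ ambient c n := by
  have h5 := hN.five_le
  have key : ∀ L, IsModel π L → H ≤ L → ∃ L, IsModel π L ∧ H = L ⊓ ambient c n :=
    fun L hL hHL => ⟨L, hL, eq_of_full_le hc (by omega) hH (le_inf hHL hH.le)
      (fun r hr hd => hL.isPiHall.1 r hr (hd.trans (Subgroup.card_dvd_of_le inf_le_left)))
      inf_le_right⟩
  rcases classify n c hc H hH hN with ⟨h, x, hx⟩ | ⟨h, h', s, hs, hx⟩ | ⟨h, h', s, hs, hx⟩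
  · exact key _ (Or.inl ⟨h, x, rfl⟩) hx
  · exact key _ (Or.inr (Or.inl ⟨h, h', s, hs, rfl⟩)) hx
  · exact key _ (Or.inr (Or.inr ⟨h, h', s, hs, rfl⟩)) hx

theorem map_conj_setStab {n : ℕ} {s t : Finset (Fin n)} {g : Perm (Fin n)}
    (hg : ∀ x, g x ∈ t ↔ x ∈ s) :
    (setStab s).map (MulAut.conj g).toMonoidHom = setStab t := by
  ext k
  rw [Subgroup.mem_map_equiv, MulAut.conj_symm_apply]
  simp only [mem_setStab, Perm.mul_apply]
  constructor
  · intro h y
    have := h (g⁻¹ y)
    rw [← hg, ← hg, ← Perm.mul_apply, mul_inv_cancel, Perm.one_apply, ← Perm.mul_apply g,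
      mul_inv_cancel, Perm.one_apply] at this
    exact this
  · intro h x
    rw [← hg, ← Perm.mul_apply, mul_inv_cancel, Perm.one_apply, h, hg]

theorem map_conj_partStab {n : ℕ} {s t : Finset (Fin n)} {g : Perm (Fin n)}
    (hg : ∀ x, g x ∈ t ↔ x ∈ s) :
    (partStab s).map (MulAut.conj g).toMonoidHom = partStab t := by
  ext k
  rw [Subgroup.mem_map_equiv, MulAut.conj_symm_apply]
  simp only [mem_partStab, Perm.mul_apply]
  have e1 : ∀ y, g (g⁻¹ y) = y := fun y => by
    rw [← Perm.mul_apply, mul_inv_cancel, Perm.one_apply]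
  constructor
  · rintro (h | h)
    · refine Or.inl fun y => ?_
      have := h (g⁻¹ y)
      rwa [← hg, ← hg, e1, e1] at this
    · refine Or.inr fun y => ?_
      have := h (g⁻¹ y)
      rwa [← hg, ← hg, e1, e1] at this
  · rintro (h | h)
    · exact Or.inl fun x => by rw [← hg, e1, h, hg]
    · exact Or.inr fun x => by rw [← hg, e1, h, hg]

theorem exists_perm_map {n : ℕ} {s t : Finset (Fin n)} (h : s.card = t.card) :
    ∃ g : Perm (Fin n), ∀ x, g x ∈ t ↔ x ∈ s := by
  obtain ⟨e⟩ : Nonempty ({x // x ∈ s} ≃ {x // x ∈ t}) :=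
    ⟨Fintype.equivOfCardEq (by rw [Fintype.card_coe, Fintype.card_coe, h])⟩
  exact ⟨e.extendSubtype, fun x => ⟨fun hx => by_contra fun hs => e.extendSubtype_not_mem x hs hx,
    fun hx => e.extendSubtype_mem x hx⟩⟩

theorem IsModel.conj {n : ℕ} {L L' : Subgroup (Perm (Fin n))} (h : IsModel π L)
    (h' : IsModel π L') : ∃ g : Perm (Fin n), L' = L.map (MulAut.conj g).toMonoidHom := by
  have hex : ∀ {m : ℕ}, m = 7 → IsBelow π m → IsTwoThree π m → False := fun {m} hm hb h23 => by
    subst hm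
    have h5 := (hb.2 5 (by norm_num) (by norm_num)).2 (by norm_num)
    have := (h23 5 (by norm_num) (by norm_num)).1 h5
    omega
  rcases h with ⟨hb, x, rfl⟩ | ⟨h7, h23, s, hs, rfl⟩ | ⟨h8, h23, s, hs, rfl⟩ <;>
    rcases h' with ⟨hb', x', rfl⟩ | ⟨h7', h23', s', hs', rfl⟩ | ⟨h8', h23', s', hs', rfl⟩
  · obtain ⟨g, hg⟩ := exists_perm_map (show ({x} : Finset (Fin n)).card = ({x'} : Finset (Fin n)).card from rfl)
    exact ⟨g, (map_conj_setStab hg).symm⟩
  · exact (hex h7' hb h23').elim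
  · exact absurd hb.1 (by rw [h8']; norm_num)
  · exact (hex h7 hb' h23).elim
  · obtain ⟨g, hg⟩ := exists_perm_map (hs.trans hs'.symm)
    exact ⟨g, (map_conj_setStab hg).symm⟩
  · omega
  · exact absurd hb'.1 (by rw [h8]; norm_num)
  · omega
  · obtain ⟨g, hg⟩ := exists_perm_map (hs.trans hs'.symm)
    exact ⟨g, (map_conj_partStab hg).symm⟩

/-- Every standard Hall subgroup contains an odd permutation. -/
theorem IsModel.exists_odd {n : ℕ} (hn : 5 ≤ n) {L : Subgroup (Perm (Fin n))} (h : IsModel π L) :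
    ∃ g ∈ L, Perm.sign g = -1 := by
  have key : ∀ s : Finset (Fin n), 1 < sᶜ.card → ∃ g ∈ setStab s, Perm.sign g = -1 := by
    intro s hs
    obtain ⟨a, b, ha, hb, hab⟩ := Finset.one_lt_card_iff.1 hs
    rw [Finset.mem_compl] at ha hb
    refine ⟨Equiv.swap a b, fun x => ?_, Perm.sign_swap hab⟩
    rcases eq_or_ne x a with rfl | h1
    · rw [Equiv.swap_apply_left]
      exact iff_of_false hb ha
    rcases eq_or_ne x b with rfl | h2
    · rw [Equiv.swap_apply_right]
      exact iff_of_false ha hb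
    rw [Equiv.swap_apply_of_ne_of_ne h1 h2]
  rcases h with ⟨-, x, rfl⟩ | ⟨rfl, -, s, hs, rfl⟩ | ⟨rfl, -, s, hs, rfl⟩
  · exact key _ (by rw [Finset.card_compl, Fintype.card_fin, Finset.card_singleton]; omega)
  · exact key _ (by rw [Finset.card_compl, Fintype.card_fin, hs]; omega)
  · obtain ⟨g, hg, h1⟩ := key s (by rw [Finset.card_compl, Fintype.card_fin, hs]; omega)
    exact ⟨g, setStab_le_partStab s hg, h1⟩

theorem ePi_alt_of_perm {n : ℕ} (h : IsEPiGroup π (Perm (Fin n))) :
    IsEPiGroup π (alternatingGroup (Fin n)) := by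
  obtain ⟨H, hH⟩ := h
  exact ⟨_, isPiHall_subgroupOf _ hH⟩

/-- A Hall subgroup of the alternating group is the trace of one of the symmetric group. -/
theorem exists_hall_perm {n : ℕ} {M : Subgroup (alternatingGroup (Fin n))} (hM : IsPiHall π M) :
    ∃ M₀ : Subgroup (Perm (Fin n)), IsPiHall π M₀ ∧ M = M₀.subgroupOf (alternatingGroup (Fin n)) := by
  by_cases hN : Nontriv π n
  · have h5 := hN.five_le
    obtain ⟨L, hL, he⟩ := exists_model (c := 1) le_rfl (isFull_map_of_isPiHall (by omega) hM) hN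
    refine ⟨L, hL.isPiHall, ?_⟩
    apply Subgroup.map_injective (alternatingGroup (Fin n)).subtype_injective
    rw [he, Subgroup.subgroupOf_map_subtype, ambient_one]
  · have hD := dPi_of_trivial (G := Perm (Fin n)) (card_perm_fin n).dvd hN
    have hpi : IsPiSubgroup π (M.map (alternatingGroup (Fin n)).subtype) := fun p hp hd =>
      hM.1 p hp (by rwa [Subgroup.card_map_of_injective
        (alternatingGroup (Fin n)).subtype_injective] at hd)
    obtain ⟨M₀, hle, hmax⟩ := Finite.exists_le_maximal hpi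
    have hM₀ := isPiHall_of_maximal hD hmax
    exact ⟨M₀, hM₀, eq_of_isPiHall_le hM
      (fun x hx => hle (Subgroup.mem_map_of_mem _ hx)) (isPiHall_subgroupOf _ hM₀).1⟩

theorem ePi_perm_of_alt {n : ℕ} (h : IsEPiGroup π (alternatingGroup (Fin n))) :
    IsEPiGroup π (Perm (Fin n)) := by
  obtain ⟨M, hM⟩ := h
  obtain ⟨M₀, hM₀, -⟩ := exists_hall_perm hM
  exact ⟨M₀, hM₀⟩

theorem cPi_perm {n : ℕ} (h : IsEPiGroup π (Perm (Fin n))) : IsCPiGroup π (Perm (Fin n)) := by
  refine ⟨h, fun H K hH hK => ?_⟩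
  by_cases hN : Nontriv π n
  · obtain ⟨L, hL, hHL⟩ := exists_model (c := 0) (by norm_num) (isFull_of_isPiHall hH) hN
    obtain ⟨L', hL', hKL⟩ := exists_model (c := 0) (by norm_num) (isFull_of_isPiHall hK) hN
    rw [ambient_zero, inf_top_eq] at hHL hKL
    subst hHL hKL
    exact hL.conj hL'
  · exact (cPi_of_dPi (dPi_of_trivial (card_perm_fin n).dvd hN)).2 H K hH hK

theorem cPi_alt {n : ℕ} (h : IsEPiGroup π (alternatingGroup (Fin n))) :
    IsCPiGroup π (alternatingGroup (Fin n)) := by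
  refine ⟨h, fun H K hH hK => ?_⟩
  by_cases hN : Nontriv π n
  · have h5 := hN.five_le
    obtain ⟨L, hL, hHL⟩ := exists_model (c := 1) le_rfl (isFull_map_of_isPiHall (by omega) hH) hN
    obtain ⟨L', hL', hKL⟩ := exists_model (c := 1) le_rfl (isFull_map_of_isPiHall (by omega) hK) hN
    rw [ambient_one] at hHL hKL
    obtain ⟨g, hg⟩ := hL.conj hL'
    obtain ⟨g', hg', hg's⟩ : ∃ g', L' = L.map (MulAut.conj g').toMonoidHom ∧ Perm.sign g' = 1 := by
      rcases Int.units_eq_one_or (Perm.sign g) with hs | hs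
      · exact ⟨g, hg, hs⟩
      · obtain ⟨τ, hτ, hτs⟩ := hL.exists_odd h5
        refine ⟨g * τ, ?_, by rw [map_mul, hs, hτs, neg_one_mul, neg_neg]⟩
        rw [hg]
        ext k
        rw [Subgroup.mem_map_equiv, Subgroup.mem_map_equiv, MulAut.conj_symm_apply,
          MulAut.conj_symm_apply]
        rw [show (g * τ)⁻¹ * k * (g * τ) = τ⁻¹ * (g⁻¹ * k * g) * τ by group]
        refine ⟨fun h => L.mul_mem (L.mul_mem (L.inv_mem hτ) h) hτ, fun h => ?_⟩
        have h2 := L.mul_mem (L.mul_mem hτ h) (L.inv_mem hτ)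
        simpa [mul_assoc] using h2
    refine ⟨⟨g', Perm.mem_alternatingGroup.2 hg's⟩, ?_⟩
    apply Subgroup.map_injective (alternatingGroup (Fin n)).subtype_injective
    have hnA : (alternatingGroup (Fin n)).map (MulAut.conj g').toMonoidHom =
        alternatingGroup (Fin n) := by
      ext k
      rw [Subgroup.mem_map_equiv, MulAut.conj_symm_apply, Perm.mem_alternatingGroup,
        Perm.mem_alternatingGroup, map_mul, map_mul, map_inv, hg's, inv_one, one_mul, mul_one]
    rw [hKL, hg', Subgroup.map_map]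
    have hcomp : (alternatingGroup (Fin n)).subtype.comp
        (MulAut.conj (⟨g', Perm.mem_alternatingGroup.2 hg's⟩ : alternatingGroup (Fin n))).toMonoidHom =
        (MulAut.conj g').toMonoidHom.comp (alternatingGroup (Fin n)).subtype :=
      MonoidHom.ext fun _ => rfl
    rw [hcomp, ← Subgroup.map_map, hHL, Subgroup.map_inf _ _ _ (MulAut.conj g').injective, hnA]
  · exact (cPi_of_dPi (dPi_of_trivial (card_alt_dvd n) hN)).2 H K hH hK

/-- Permutations preserving or interchanging `s` and `u`. -/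
def pairStab {n : ℕ} (s u : Finset (Fin n)) : Subgroup (Perm (Fin n)) where
  carrier := {g | (∀ x, (g x ∈ s ↔ x ∈ s) ∧ (g x ∈ u ↔ x ∈ u)) ∨
    ∀ x, (g x ∈ s ↔ x ∈ u) ∧ (g x ∈ u ↔ x ∈ s)}
  mul_mem' := by
    rintro a b (ha | ha) (hb | hb)
    · exact Or.inl fun x => ⟨by rw [Perm.mul_apply, (ha _).1, (hb _).1],
        by rw [Perm.mul_apply, (ha _).2, (hb _).2]⟩
    · exact Or.inr fun x => ⟨by rw [Perm.mul_apply, (ha _).1, (hb _).1],
        by rw [Perm.mul_apply, (ha _).2, (hb _).2]⟩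
    · exact Or.inr fun x => ⟨by rw [Perm.mul_apply, (ha _).1, (hb _).2],
        by rw [Perm.mul_apply, (ha _).2, (hb _).1]⟩
    · exact Or.inl fun x => ⟨by rw [Perm.mul_apply, (ha _).1, (hb _).2],
        by rw [Perm.mul_apply, (ha _).2, (hb _).1]⟩
  one_mem' := Or.inl fun x => ⟨Iff.rfl, Iff.rfl⟩
  inv_mem' := by
    rintro a (ha | ha)
    · refine Or.inl fun x => ?_
      have := ha (a⁻¹ x)
      rw [← Perm.mul_apply, mul_inv_cancel, Perm.one_apply] at this
      exact ⟨this.1.symm, this.2.symm⟩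
    · refine Or.inr fun x => ?_
      have := ha (a⁻¹ x)
      rw [← Perm.mul_apply, mul_inv_cancel, Perm.one_apply] at this
      exact ⟨this.2.symm, this.1.symm⟩

theorem pow_six_eq_one : (∀ t : Perm (Fin 3), t ^ 6 = 1) ∧ (∀ t : Perm (Fin 2), t ^ 6 = 1) ∧
    (∀ t : Perm (Fin 1), t ^ 6 = 1) ∧ ∀ t : Perm (Fin 0), t ^ 6 = 1 := by
  refine ⟨?_, ?_, ?_, ?_⟩ <;> decide +kernel

theorem pow_six_fix {n : ℕ} {w : Finset (Fin n)} (hw : w.card ≤ 3) {g : Perm (Fin n)}
    (hg : g ∈ setStab w) {x : Fin n} (hx : x ∈ w) : (g ^ 6) x = x := by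
  obtain ⟨m, hm⟩ : ∃ m, w.card = m := ⟨_, rfl⟩
  have h1 : restrictHom hm (⟨g, hg⟩ ^ 6 : setStab w) = 1 := by
    obtain ⟨h3, h2, h1, h0⟩ := pow_six_eq_one
    rw [map_pow]
    rcases (show m = 0 ∨ m = 1 ∨ m = 2 ∨ m = 3 by omega) with rfl | rfl | rfl | rfl
    exacts [h0 _, h1 _, h2 _, h3 _]
  have h2 := restrictHom_apply hm (⟨g, hg⟩ ^ 6 : setStab w) ⟨x, hx⟩
  rw [h1, Perm.one_apply] at h2
  exact (congrArg Subtype.val ((finEquiv hm).injective h2)).symm

theorem isPiSubgroup_pairStab {n : ℕ} {s u : Finset (Fin n)} (hs : s.card = 3) (hu : u.card = 3)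
    (hd : Disjoint s u) (hn : n ≤ 9) (h2 : 2 ∈ π) (h3 : 3 ∈ π) :
    IsPiSubgroup π (pairStab s u) := by
  intro r hr hrd
  haveI : Fact r.Prime := ⟨hr⟩
  by_cases hr2 : r = 2
  · exact hr2 ▸ h2
  obtain ⟨g, hg⟩ := exists_prime_orderOf_dvd_card' r hrd
  have hord : orderOf (g : Perm (Fin n)) = r := by rw [Subgroup.orderOf_coe, hg]
  have hodd := hr.eq_two_or_odd.resolve_left hr2
  -- an element of odd order preserves both sets
  have hsq : ∀ x, (((g : Perm (Fin n)) ^ 2) x ∈ s ↔ x ∈ s) ∧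
      (((g : Perm (Fin n)) ^ 2) x ∈ u ↔ x ∈ u) := fun x => by
    rw [pow_two, Perm.mul_apply]
    rcases g.2 with h | h
    · exact ⟨((h _).1.trans (h x).1), ((h _).2.trans (h x).2)⟩
    · exact ⟨((h _).1.trans (h x).2), ((h _).2.trans (h x).1)⟩
  have hg' : (g : Perm (Fin n)) = ((g : Perm (Fin n)) ^ 2) ^ ((r + 1) / 2) := by
    rw [← pow_mul, show 2 * ((r + 1) / 2) = r + 1 by omega, pow_succ, ← hord, pow_orderOf_eq_one,
      one_mul]
  have hms : (g : Perm (Fin n)) ∈ setStab s :=
    hg' ▸ (setStab s).pow_mem (fun x => (hsq x).1) _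
  have hmu : (g : Perm (Fin n)) ∈ setStab u :=
    hg' ▸ (setStab u).pow_mem (fun x => (hsq x).2) _
  have hmr : (g : Perm (Fin n)) ∈ setStab (s ∪ u)ᶜ := by
    intro x
    simp only [Finset.mem_compl, Finset.mem_union, hms x, hmu x]
  have h6 : (g : Perm (Fin n)) ^ 6 = 1 := by
    refine Equiv.ext fun x => ?_
    rw [Perm.one_apply]
    by_cases hxs : x ∈ s
    · exact pow_six_fix hs.le hms hxs
    by_cases hxu : x ∈ u
    · exact pow_six_fix hu.le hmu hxu
    refine pow_six_fix ?_ hmr (by simp [hxs, hxu])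
    rw [Finset.card_compl, Finset.card_union_of_disjoint hd, Fintype.card_fin, hs, hu]
    omega
  have h4 : r ∣ 2 * 3 := hord ▸ orderOf_dvd_of_pow_eq_one h6
  rcases hr.dvd_mul.1 h4 with h | h
  · exact (Nat.prime_dvd_prime_iff_eq hr Nat.prime_two).1 h ▸ h2
  · exact (Nat.prime_dvd_prime_iff_eq hr Nat.prime_three).1 h ▸ h3

theorem no_invariant_seven : ∀ t : Finset (Fin 7), t.card = 3 → ¬ (
    (∀ x, (Equiv.swap (0 : Fin 7) 1 * Equiv.swap 1 2 : Perm (Fin 7)) x ∈ t ↔ x ∈ t) ∧
    (∀ x, (Equiv.swap (3 : Fin 7) 4 * Equiv.swap 4 5 : Perm (Fin 7)) x ∈ t ↔ x ∈ t) ∧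
    ∀ x, (Equiv.swap (0 : Fin 7) 3 * (Equiv.swap 1 4 * Equiv.swap 4 2 * Equiv.swap 2 5) : Perm (Fin 7)) x ∈ t
      ↔ x ∈ t) := by
  decide +kernel

theorem no_invariant_eight : ∀ t : Finset (Fin 8), t.card = 4 → ¬ (
    ((∀ x, (Equiv.swap (0 : Fin 8) 1 * Equiv.swap 1 2 : Perm (Fin 8)) x ∈ t ↔ x ∈ t) ∨
      ∀ x, (Equiv.swap (0 : Fin 8) 1 * Equiv.swap 1 2 : Perm (Fin 8)) x ∈ t ↔ x ∉ t) ∧
    ((∀ x, (Equiv.swap (3 : Fin 8) 4 * Equiv.swap 4 5 : Perm (Fin 8)) x ∈ t ↔ x ∈ t) ∨
      ∀ x, (Equiv.swap (3 : Fin 8) 4 * Equiv.swap 4 5 : Perm (Fin 8)) x ∈ t ↔ x ∉ t) ∧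
    ((∀ x, (Equiv.swap (0 : Fin 8) 3 * (Equiv.swap 1 4 * Equiv.swap 4 2 * Equiv.swap 2 5) : Perm (Fin 8)) x ∈ t
      ↔ x ∈ t) ∨
      ∀ x, (Equiv.swap (0 : Fin 8) 3 * (Equiv.swap 1 4 * Equiv.swap 4 2 * Equiv.swap 2 5) : Perm (Fin 8)) x ∈ t
        ↔ x ∉ t)) := by
  decide +kernel

/-- For non-trivial prime sets an even `π`-subgroup lies in no standard Hall subgroup. -/
theorem exists_bad {n : ℕ} (hN : Nontriv π n) {L : Subgroup (Perm (Fin n))} (hL : IsModel π L) :
    ∃ Q : Subgroup (Perm (Fin n)), Q ≤ alternatingGroup (Fin n) ∧ IsPiSubgroup π Q ∧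
      ∀ L', IsModel π L' → ¬ Q ≤ L' := by
  have h5 := hN.five_le
  rcases hL with ⟨⟨hn, hb⟩, x₀, -⟩ | ⟨rfl, h23, -⟩ | ⟨rfl, h23, -⟩
  · let a : Fin n := ⟨0, by omega⟩
    let b : Fin n := ⟨1, by omega⟩
    let c : Fin n := ⟨2, by omega⟩
    let d : Fin n := ⟨3, by omega⟩
    have hab : a ≠ b := Fin.ne_of_val_ne (by norm_num [a, b])
    have hcard : ({a, b} : Finset (Fin n)).card = 2 := Finset.card_pair hab
    refine ⟨setStab {a, b} ⊓ alternatingGroup (Fin n), inf_le_right, fun r hr hd => ?_, ?_⟩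
    · refine isPiSubgroup_setStab (π := π) {a, b} (fun r hr h => ?_) r hr
        (hd.trans (Subgroup.card_dvd_of_le inf_le_left))
      rw [hcard] at h
      exact (hb r hr (by omega)).2 (by omega)
    · intro L' hL'
      rcases hL' with ⟨-, z, rfl⟩ | ⟨rfl, h23, -⟩ | ⟨rfl, -, -⟩
      · intro hle
        by_cases hz : z = a ∨ z = b
        · have hcd : c ≠ d := Fin.ne_of_val_ne (by norm_num [c, d])
          have hca : c ≠ a := Fin.ne_of_val_ne (by norm_num [c, a])
          have hcb : c ≠ b := Fin.ne_of_val_ne (by norm_num [c, b])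
          have hda : d ≠ a := Fin.ne_of_val_ne (by norm_num [d, a])
          have hdb : d ≠ b := Fin.ne_of_val_ne (by norm_num [d, b])
          let g : Perm (Fin n) := Equiv.swap a b * Equiv.swap c d
          have hga : g a = b := by
            rw [Perm.mul_apply, Equiv.swap_apply_of_ne_of_ne hca.symm hda.symm,
              Equiv.swap_apply_left]
          have hgb : g b = a := by
            rw [Perm.mul_apply, Equiv.swap_apply_of_ne_of_ne hcb.symm hdb.symm,
              Equiv.swap_apply_right]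
          have hg : g ∈ setStab {a, b} ⊓ alternatingGroup (Fin n) := by
            refine Subgroup.mem_inf.2 ⟨fun w => ?_, ?_⟩
            · simp only [Finset.mem_insert, Finset.mem_singleton]
              constructor
              · rintro (h | h)
                · exact Or.inr (g.injective (h.trans hgb.symm))
                · exact Or.inl (g.injective (h.trans hga.symm))
              · rintro (rfl | rfl)
                · exact Or.inr hga
                · exact Or.inl hgb
            · rw [Perm.mem_alternatingGroup, map_mul, Perm.sign_swap hab,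
                Perm.sign_swap hcd]
              decide
          have h := setStab_singleton z ▸ hle hg
          rw [MulAction.mem_stabilizer_iff, Perm.smul_def] at h
          rcases hz with rfl | rfl
          · exact hab (h.symm.trans hga)
          · exact hab (hgb.symm.trans h)
        · simp only [not_or] at hz
          have hzm : z ∈ ({a, b} : Finset (Fin n))ᶜ := by simp [hz.1, hz.2]
          have hcc : 3 ≤ ({a, b} : Finset (Fin n))ᶜ.card := by
            rw [Finset.card_compl, hcard, Fintype.card_fin]; omega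
          obtain ⟨w, hw, hwz⟩ := Finset.exists_mem_ne (by omega : 1 < ({a, b} : Finset (Fin n))ᶜ.card) z
          obtain ⟨γ, -, hγs, hγz, -, hγp⟩ := exists_cycle hcc hzm hw hwz.symm
          have h := setStab_singleton z ▸ hle (Subgroup.mem_inf.2
            ⟨setStab_compl {a, b} ▸ hγp, Perm.mem_alternatingGroup.2 hγs⟩)
          rw [MulAction.mem_stabilizer_iff, Perm.smul_def] at h
          exact hwz (hγz.symm.trans h)
      · have := (h23 5 (by norm_num) (by norm_num)).1 ((hb 5 (by norm_num) (by norm_num)).2 (by norm_num))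
        omega
      · exact absurd hn (by norm_num)
  · refine ⟨pairStab {0, 1, 2} {3, 4, 5} ⊓ alternatingGroup (Fin 7), inf_le_right,
      fun r hr hd => isPiSubgroup_pairStab (π := π) (s := ({0, 1, 2} : Finset (Fin 7)))
        (u := {3, 4, 5}) (by decide) (by decide) (by decide) (by norm_num)
        ((h23 2 (by norm_num) (by norm_num)).2 (Or.inl rfl))
        ((h23 3 (by norm_num) (by norm_num)).2 (Or.inr rfl)) r hr
        (hd.trans (Subgroup.card_dvd_of_le inf_le_left)), ?_⟩
    intro L' hL'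
    rcases hL' with ⟨⟨-, hb⟩, -⟩ | ⟨-, -, t, ht, rfl⟩ | ⟨h8, -⟩
    · have := (h23 5 (by norm_num) (by norm_num)).1 ((hb 5 (by norm_num) (by norm_num)).2 (by norm_num))
      omega
    · intro hle
      refine no_invariant_seven t ht ⟨hle ⟨?_, ?_⟩, hle ⟨?_, ?_⟩, hle ⟨?_, ?_⟩⟩
      · exact Or.inl (by decide +kernel)
      · exact Perm.mem_alternatingGroup.2 (by decide +kernel)
      · exact Or.inl (by decide +kernel)
      · exact Perm.mem_alternatingGroup.2 (by decide +kernel)
      · exact Or.inr (by decide +kernel)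
      · exact Perm.mem_alternatingGroup.2 (by decide +kernel)
    · omega
  · refine ⟨pairStab {0, 1, 2} {3, 4, 5} ⊓ alternatingGroup (Fin 8), inf_le_right,
      fun r hr hd => isPiSubgroup_pairStab (π := π) (s := ({0, 1, 2} : Finset (Fin 8)))
        (u := {3, 4, 5}) (by decide) (by decide) (by decide) (by norm_num)
        ((h23 2 (by norm_num) (by norm_num)).2 (Or.inl rfl))
        ((h23 3 (by norm_num) (by norm_num)).2 (Or.inr rfl)) r hr
        (hd.trans (Subgroup.card_dvd_of_le inf_le_left)), ?_⟩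
    intro L' hL'
    rcases hL' with ⟨⟨hn, -⟩, -⟩ | ⟨h7, -⟩ | ⟨-, -, t, ht, rfl⟩
    · exact absurd hn (by norm_num)
    · omega
    · intro hle
      refine no_invariant_eight t ht ⟨hle ⟨?_, ?_⟩, hle ⟨?_, ?_⟩, hle ⟨?_, ?_⟩⟩
      · exact Or.inl (by decide +kernel)
      · exact Perm.mem_alternatingGroup.2 (by decide +kernel)
      · exact Or.inl (by decide +kernel)
      · exact Perm.mem_alternatingGroup.2 (by decide +kernel)
      · exact Or.inr (by decide +kernel)
      · exact Perm.mem_alternatingGroup.2 (by decide +kernel)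

theorem not_dPi_alt {n : ℕ} (hN : Nontriv π n) : ¬ IsDPiGroup π (alternatingGroup (Fin n)) := by
  intro hD
  have h5 := hN.five_le
  obtain ⟨M, hM⟩ := HallUniversal.ePi_of_dPi hD
  obtain ⟨L, hL, -⟩ := exists_model (c := 1) le_rfl (isFull_map_of_isPiHall (by omega) hM) hN
  obtain ⟨Q, hQA, hQπ, hQ⟩ := exists_bad hN hL
  have hQ' : IsPiSubgroup π (Q.subgroupOf (alternatingGroup (Fin n))) := fun p hp hd =>
    hQπ p hp (by rwa [Nat.card_congr (Subgroup.subgroupOfEquivOfLe hQA).toEquiv] at hd)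
  obtain ⟨K, hle, hmax⟩ := Finite.exists_le_maximal hQ'
  obtain ⟨L', hL', he⟩ := exists_model (c := 1) le_rfl
    (isFull_map_of_isPiHall (by omega) (isPiHall_of_maximal hD hmax)) hN
  refine hQ L' hL' fun q hq => ?_
  have h1 : q ∈ K.map (alternatingGroup (Fin n)).subtype :=
    Subgroup.mem_map.2 ⟨⟨q, hQA hq⟩, hle hq, rfl⟩
  rw [he] at h1
  exact h1.1

end CfsgLib.HallSym
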